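import Cfsg.Agent.Trans.PushRK
import Cfsg.Agent.Trans.BlkRed
import Cfsg.Agent.Trans.BlkFinD

/-! A common normal 2-subgroup of a minimal parabolic and a second overgroup of a Sylow group. -/

set_option autoImplicit false

open scoped commutatorElement MatrixGroups

namespace Cfsg.Lib.Trans.BB

open Cfsg Subgroup Cfsg.Lib.Solv Cfsg.Lib.Trans Cfsg.Lib.Trans.TJ Cfsg.Lib.Trans.MP
  Cfsg.Lib.Trans.PU Cfsg.Lib.Local.MSS Cfsg.Lib.Chev.Core

local notation "𝐂" A:max => Subgroup.centralizer (SetLike.coe A)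
local notation "𝐍" A:max => Subgroup.normalizer (SetLike.coe A)

variable {G : Type*} [Group G]

local notation "𝐖" P:max => (⁅vv 2 P, P⁆ : Subgroup G)

variable [Finite G] {S T E M M₀ H L R : Subgroup G}

theorem RK.conj_comm (h : RK S E) (hT : IsSylowIn 2 T ⊤) (h1 : S ≤ T) (h2 : T ≤ M₀)
    (h3 : M₀ ≤ 𝐍 S) (ha : ∀ t ∈ T, Trans.cj t (𝐖 E) ≤ 𝐂 (𝐖 E))
    (hb : ∀ P ≤ T, T ≤ 𝐍 P → E ≤ 𝐍 P → P ≤ 𝐂 (𝐖 E))
    (hc : ∀ X, T ≤ X → pCoreOf 2 X ≠ ⊥ → Local.CharP 2 X) {x : G} (hx : x ∈ M₀) :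
    Trans.cj x (𝐖 E) ≤ 𝐂 (𝐖 E) := by
  by_contra hn
  let nc (a b : G) : Prop := ¬ 𝐖 (Trans.cj b E) ≤ 𝐂 (𝐖 (Trans.cj a E))
  have r {a : G} (ha : a ∈ M₀) := h.cj (h3 ha)
  have sy {a b : G} (e : nc a b) : nc b a := fun c => e (cent_symm c)
  have mu (g : G) {a b : G} (e : nc a b) : nc (g * a) (g * b) := fun c => e (by
    rwa [cj_mul, cj_mul, W_cj g, W_cj g, ← cj_centralizer, cj_le_cj] at c)
  have tr {a b c d : G} (ha : a ∈ M₀) (hb : b ∈ M₀) (hc : c ∈ M₀) (hd : d ∈ M₀) (e1 : nc a b)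
      (e2 : nc b c) (e3 : nc c d) : nc a d := fun e =>
    e3 ((le_inf (r hd).le e).trans ((r hb).par (r ha) (r hc) e1 (sy e2)))
  have n1 {a : G} : nc 1 a ↔ ¬ Trans.cj a (𝐖 E) ≤ 𝐂 (𝐖 E) := by
    simp only [nc, cj_one, W_cj]
  have nx := n1.2 hn
  have od (k : ℕ) : nc 1 (x ^ (2 * k + 1)) := by
    induction k with
    | zero => simpa using nx
    | succ k ih =>
      have e (j : ℕ) : nc (x ^ j) (x ^ (j + 1)) := by simpa [pow_succ] using mu (x ^ j) nx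
      exact tr (one_mem _) (pow_mem hx _) (pow_mem hx _) (pow_mem hx _) ih (e _) (e _)
  obtain ⟨a, _, ⟨k, rfl⟩, e⟩ := Nat.exists_eq_two_pow_mul_odd (orderOf_pos x).ne'
  obtain ⟨m, hm, ht⟩ := (hT.mono h2 le_top).exists_cj_le (Q := zpowers (x ^ (2 * k + 1)))
    (PG.isPGroup_zpowers (k := a) (by rw [← pow_mul, mul_comm, ← e, pow_orderOf_eq_one]))
    (zpowers_le.2 (pow_mem hx _))
  replace ht := ht (conj_mem_cj.2 (mem_zpowers _))
  have nt := mu m (od k)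
  rw [mul_one, show m * x ^ (2 * k + 1) = m * x ^ (2 * k + 1) * m⁻¹ * m by group] at nt
  generalize m * x ^ (2 * k + 1) * m⁻¹ = t at ht nt
  have m1 {s : G} (hs : s ∈ T) := mul_mem (h2 hs) hm
  have c1 {s : G} (hs : s ∈ T) : ¬ nc 1 (s * m) := fun e => by
    have h4 := mul_mem (mul_mem hs ht) (inv_mem hs)
    refine n1.1 (tr (one_mem _) (m1 hs) (m1 (mul_mem hs ht)) (h2 h4) e
      (by simpa [mul_assoc] using mu s nt) (sy ?_)) (ha _ h4)
    simpa [mul_assoc] using mu (s * t * s⁻¹) e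
  have c2 {s : G} (hs : s ∈ T) : ¬ nc x (s * m) := fun e => c1 (mul_mem hs ht)
    (tr (one_mem _) hx (m1 hs) (m1 (mul_mem hs ht)) nx e (by simpa [mul_assoc] using mu s nt))
  set N := ncl (𝐖 (Trans.cj m E)) T
  have k1 {a : G} (c : ∀ s ∈ T, ¬ nc a (s * m)) : N ≤ S ⊓ 𝐂 (𝐖 (Trans.cj a E)) := iSup_le fun s => by
    rw [← W_cj, ← cj_mul]
    exact le_inf (r (m1 s.2)).le (not_not.1 (c s s.2))
  have d1 : ⁅N, N⁆ ≤ 𝐂 E := by
    have := k1 fun _ => c1
    rw [cj_one] at this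
    exact (commutator_mono this this).trans h.cQ
  have d2 := (commutator_mono (k1 fun _ => c2) (k1 fun _ => c2)).trans (r hx).cQ
  have d3 : ⁅N, N⁆ ≠ ⊥ := fun e => nt (by
    rw [cj_mul, W_cj t]
    exact (cj_le_ncl _ ht).trans ((cent_iff.2 e).trans (TJ.centralizer_anti (le_ncl _ _))))
  have d4 : T ≤ 𝐍 ⁅N, N⁆ := norm_comm (le_normalizer_ncl _ _) (le_normalizer_ncl _ _)
  have d5 : ⁅N, N⁆ ≤ T := ((Local.commutator_le_inf_of_le_normalizer le_normalizer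
    le_normalizer).trans inf_le_left).trans (((k1 fun _ => c1).trans inf_le_left).trans h1)
  generalize ⁅N, N⁆ = D at d1 d2 d3 d4 d5
  have nP := Local.le_normalizer_pCoreOf (p := 2) (𝐍 D)
  have hW : 𝐖 E ≤ pCoreOf 2 (𝐍 D) := (le_inf ((h.le.trans h1).trans d4) (cent_symm (hb _
    (Local.pCoreOf_le_sylowIn (hT.mono d4 le_top)) (d4.trans nP)
    (((cent_symm d1).trans (cent_le_norm _)).trans nP)))).trans (hc _ d4 fun e => d3
      (le_bot_iff.1 ((Local.le_pCoreOf (d5.trans d4) le_rfl (hT.isPGroup.to_le d5)).trans e.le)))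
  refine hn (cent_symm ?_)
  rw [← W_cj]
  exact (le_inf hW (h.le.trans (r hx).toBlk.nB)).trans ((r hx).cent_of_norm
    ((isPGroup_pCoreOf _).to_le inf_le_left) (norm_inf (((cent_symm d2).trans
      (cent_le_norm _)).trans nP) (le_normalizer.trans le_normalizer)) inf_le_right)

theorem exists_rk (hR : IsSylowIn 2 R L) (hc : Local.CharP 2 L) (h0 : R ≠ ⊥)
    (hM : ∀ C ≤ R, C ≠ ⊥ → 𝐍 R ≤ 𝐍 C → L ⊓ 𝐍 C ≤ M) (h : ¬ L ≤ M) :
    ∃ E ≤ L, ¬ E ≤ M ∧ RK (baumannSubgroupOf 2 R) E ∧ 𝐖 E ≤ vv 2 L ∧ pCoreOf 2 L ≤ 𝐍 E := by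
  have hf := L.subtype_injective
  have e := map_subgroupOf_eq_of_le hR.le
  have e1 := (map_bau (n := 2) hf (R.subgroupOf L)).trans (congrArg _ e)
  have e2 : (⊤ : Subgroup L).map L.subtype = L := by rw [← MonoidHom.range_eq_map, range_subtype]
  have hc' : Local.CharP 2 (⊤ : Subgroup L) := (Local.charP_map_iff _ hf).1 (by rwa [e2])
  obtain ⟨E, A, r, -, hE⟩ := exists_rd (M := M.subgroupOf L) (H := ⊤) hR.subgroupOf_top hc'
    (sup_le (fun x hx => hM _ (omZ_le R) (omZ_ne_bot hR.isPGroup h0) (le_normalizer_omZ le_rfl)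
      ⟨x.2, cent_le_norm _ (by
        have := red_cent_map (f := L.subtype) hx
        rwa [map_omegaOneCenter _ hf, e] at this)⟩) (iSup_le fun C x hx => by
      have c1 := map_mono (f := L.subtype) C.2.1
      have c2 := red_char_map hf C.2.2.2
      rw [e1] at c1 c2
      exact hM _ (c1.trans (bau_le R)) (fun e => C.2.2.1 ((map_eq_bot_iff_of_injective _ hf).1 e))
        (le_trans (fun g hg => cj_eq_self_iff.1 (by
          rw [← bau_cj, cj_eq_of_mem_normalizer hg])) (norm_le_of_char c1 c2))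
        ⟨x.2, red_norm_map hx⟩)) le_top le_top fun c => h fun x hx => c (x := ⟨x, hx⟩) trivial
  refine ⟨_, map_subtype_le E, fun c => hE (map_le_iff_le_comap.1 c), e1 ▸ r.rk.map hf, ?_, ?_⟩
  · rw [← vv_map E hf, ← map_commutator]
    exact (map_mono (r.toBlk.W_le_V r.toBK.wc hc')).trans (by rw [vv_map _ hf, e2])
  · have := map_mono (f := L.subtype) (r.toBlk.O_norm r.toBK.wc)
    rw [Local.map_pCoreOf_of_injective _ hf, e2] at this
    exact this.trans (le_normalizer_map _)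

theorem common_normal (hT : IsSylowIn 2 T ⊤)
    (hc : ∀ X, T ≤ X → pCoreOf 2 X ≠ ⊥ → Local.CharP 2 X) (h1 : T ≤ M₀) (hH : pCoreOf 2 H ≠ ⊥)
    (hU : UniqMax T M H) (h0 : R ≠ ⊥) (hRT : R ≤ T) (hR : IsSylowIn 2 R (Local.resOf 2 H ⊔ R))
    (hM : M₀ ≤ 𝐍 R) : ∃ R₀, R₀ ≠ ⊥ ∧ R₀ ≤ R ∧ M₀ ⊔ H ≤ 𝐍 R₀ := by
  by_contra! hn
  set L := Local.resOf 2 H ⊔ R
  have e := Local.resOf_sup_sylowIn (hT.mono hU.le_top le_top)
  have hLH : L ≤ H := sup_le (Local.resOf_le H) (hRT.trans hU.le_top)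
  have nT : T ≤ 𝐍 L := norm_sup (hU.le_top.trans (Local.le_normalizer_resOf H)) (h1.trans hM)
  have nH : H ≤ 𝐍 L := e.ge.trans (sup_le (le_sup_left.trans le_normalizer) nT)
  obtain ⟨E, e1, e2, h, e3, e4⟩ := exists_rk (M := M) hR ((hc H hU.le_top hH).of_normal hLH nH) h0
    (fun C c1 c2 c3 => (inf_le_inf_right _ hLH).trans ((hU.le_or_le ((h1.trans hM).trans c3)).resolve_left
      fun c => hn C c2 c1 (sup_le (hM.trans c3) c)))
    fun c => hU.not_le (e.ge.trans (sup_le (le_sup_left.trans c) hU.le))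
  have k {P : Subgroup G} (c1 : T ≤ 𝐍 P) (c2 : E ≤ 𝐍 P) : H ≤ 𝐍 P :=
    (hU.le_or_le c1).resolve_right fun c => e2 ((le_inf (e1.trans hLH) c2).trans c)
  have nS : M₀ ≤ 𝐍 (baumannSubgroupOf 2 R) := fun g hg => cj_eq_self_iff.1 (by
    rw [← bau_cj, cj_eq_of_mem_normalizer (hM hg)])
  have c := @h.conj_comm _ _ _ _ _ _ M₀ hT ((bau_le R).trans hRT) h1 nS (fun t ht =>
    ((cj_mono t e3).trans (cj_eq_of_mem_normalizer (norm_V L (nT ht))).le).trans
      ((ea_le_centralizer (vv_ea L)).trans (TJ.centralizer_anti e3))) (fun P p1 p2 p3 => by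
    have p4 : ⁅P, E⁆ ≤ pCoreOf 2 L := le_trans (le_inf (commutator_le_left_of_le_normalizer p3)
      ((commutator_mono le_rfl e1).trans (commutator_le_right_of_le_normalizer (p1.trans nT))))
      (Local.le_pCoreOf inf_le_right (norm_inf (hLH.trans (k p2 p3)) le_normalizer)
        ((hT.isPGroup.to_le p1).to_le inf_le_left))
    refine h.cent_of_norm (hT.isPGroup.to_le p1) p3 ?_
    rw [← h.toBlk.res_sup (isPGroup_pCoreOf L) e4]
    refine le_trans (fun y hy => mem_normalizer_of_cj_le ?_)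
      (Local.normalizer_le_normalizer_resOf _)
    rw [cj_sup, cj_eq_of_mem_normalizer (norm_Q L (nT (p1 hy)))]
    exact sup_le ((Local.cj_le_commutator_sup hy).trans (sup_le (p4.trans le_sup_right)
      le_sup_left)) le_sup_right) hc
  set U := ncl (𝐖 E) M₀
  have u1 : U ≤ baumannSubgroupOf 2 R ⊓ 𝐂 (𝐖 E) := le_inf (ncl_le h.le nS) (iSup_le fun m => c m.2)
  refine hn U (fun e => h.toBlk.W_not (((le_ncl _ _).trans e.le).trans bot_le))
    ((u1.trans inf_le_left).trans (bau_le R)) (sup_le (le_normalizer_ncl _ _)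
      (k (h1.trans (le_normalizer_ncl _ _)) (Local.le_normalizer_of_commutator_le ?_)))
  exact ((commutator_mono u1 le_rfl).trans h.cE).trans (le_ncl _ _)

end Cfsg.Lib.Trans.BB
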