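import Mathlib.GroupTheory.Focal
import Mathlib.GroupTheory.Nilpotent
import Cfsg.Agent.Trans.NormalComplement
import Cfsg.Agent.Solv.Conj
import Cfsg.Agent.Block.SylowIn

/-!
Control of fusion of elements gives control of `P ∩ O^p(G)`; a weakly closed central subgroup of
a Sylow subgroup has a normalizer controlling fusion.
-/

set_option autoImplicit false

open Subgroup Pointwise
open scoped commutatorElement

namespace Cfsg.Lib.Trans

variable {G : Type*} [Group G] {p : ℕ}

/-- In a nilpotent group `Q ≤ ⁅Q, G⁆` forces `Q = 1`. -/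
theorem eq_bot_of_le_commutator_top [Group.IsNilpotent G] {Q : Subgroup G}
    (h : Q ≤ ⁅Q, (⊤ : Subgroup G)⁆) : Q = ⊥ := by
  obtain ⟨n, hn⟩ := Subgroup.nilpotent_iff_lowerCentralSeries.mp (inferInstance : Group.IsNilpotent G)
  have : ∀ k, Q ≤ (⊤ : Subgroup G).lowerCentralSeries k := by
    intro k
    induction k with
    | zero => exact le_top
    | succ k ih => exact h.trans (commutator_mono ih le_rfl)
  exact le_bot_iff.mp (hn ▸ this n)

variable [hp : Fact p.Prime] [Finite G]

/-- A subgroup `Q ≤ V` with `Q ≤ ⁅Q, V⁆` lies in `O^p(V)`. -/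
theorem le_map_pResidual_of_le_commutator {Q V : Subgroup G} (hQV : Q ≤ V) (h : Q ≤ ⁅Q, V⁆) :
    Q ≤ (pResidual p V).map V.subtype := by
  have h1 : Q.subgroupOf V ≤ ⁅Q.subgroupOf V, (⊤ : Subgroup V)⁆ := by
    rw [← map_subtype_le_map_subtype, map_commutator, map_subgroupOf_eq_of_le hQV,
      ← MonoidHom.range_eq_map, range_subtype]
    exact h
  have hn : Group.IsNilpotent (V ⧸ pResidual p V) := isPGroup_quotient_pResidual.isNilpotent
  have h2 : (Q.subgroupOf V).map (QuotientGroup.mk' (pResidual p V)) = ⊥ := by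
    apply eq_bot_of_le_commutator_top
    refine (map_mono h1).trans ?_
    rw [map_commutator]
    exact commutator_mono le_rfl le_top
  rw [Subgroup.map_eq_bot_iff, QuotientGroup.ker_mk'] at h2
  rw [← map_subgroupOf_eq_of_le hQV]
  exact map_mono h2

/-- If `G = O^p(G)` then a Sylow `p`-subgroup is its own focal subgroup. -/
theorem focalSubgroup_eq_self_of_pResidual_eq_top (h : pResidual p G = ⊤) (P : Sylow p G) :
    (P : Subgroup G).focalSubgroup = P := by
  have hQ : IsPGroup p (P ⧸ (P : Subgroup G).focalSubgroupOf) := P.2.to_quotient _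
  have h1 := pResidual_le_ker (P : Subgroup G).transferFocal hQ
  rw [h, top_le_iff] at h1
  rw [← ker_transferFocal_inf_eq_focalSubgroup P, h1, top_inf_eq]

/-- If `V ≥ P` controls the fusion of elements of the Sylow subgroup `P`, then
`P ∩ O^p(G) = P ∩ O^p(V)`. -/
theorem inf_pResidual_eq_of_controls (P : Sylow p G) {V : Subgroup G} (hPV : (P : Subgroup G) ≤ V)
    (hc : ∀ x ∈ (P : Subgroup G), ∀ g : G, g * x * g⁻¹ ∈ (P : Subgroup G) →
      ∃ v ∈ V, g * x * g⁻¹ = v * x * v⁻¹) :
    (P : Subgroup G) ⊓ pResidual p G = (P : Subgroup G) ⊓ (pResidual p V).map V.subtype := by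
  refine le_antisymm (le_inf inf_le_left ?_) (inf_le_inf_left _ (map_pResidual_le _))
  apply le_map_pResidual_of_le_commutator (inf_le_left.trans hPV)
  have h1 := focalSubgroup_eq_self_of_pResidual_eq_top pResidual_pResidual
    (sylowInfNormal P (pResidual p G))
  rw [coe_sylowInfNormal] at h1
  have h2 : (P : Subgroup G) ⊓ pResidual p G =
      ((P : Subgroup G).subgroupOf (pResidual p G)).map (pResidual p G).subtype :=
    (subgroupOf_map_subtype _ _).symm
  refine h2.le.trans ?_
  rw [← h1, map_le_iff_le_comap, focalSubgroup_def, closure_le]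
  rintro _ ⟨hg, x, hx, u, rfl⟩
  have hx' : (x : G) ∈ (P : Subgroup G) := hx
  have hg' : ((x : G) * u * (x : G)⁻¹ * (u : G)⁻¹) ∈ (P : Subgroup G) := hg
  have h3 : (u : G) * (x : G)⁻¹ * (u : G)⁻¹ ∈ (P : Subgroup G) := by
    have := mul_mem (inv_mem hx') hg'
    simpa [mul_assoc] using this
  obtain ⟨v, hv, hv'⟩ := hc _ (inv_mem hx') u h3
  have h4 : ((⁅x, u⁆ : pResidual p G) : G) = ⁅(x : G), v⁆ := by
    rw [commutatorElement_def, commutatorElement_def]
    simp only [coe_mul, coe_inv, mul_assoc] at hv' ⊢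
    rw [hv']
  show ((⁅x, u⁆ : pResidual p G) : G) ∈ ⁅(P : Subgroup G) ⊓ pResidual p G, V⁆
  rw [h4]
  exact commutator_mem_commutator ⟨hx', x.2⟩ hv

/-- Two `p`-subgroups of `H` can be put in one Sylow subgroup of `G` after conjugating one of
them by an element of `H`. -/
theorem exists_sylow_ge_and_conj_le {A B H : Subgroup G} (hA : IsPGroup p A) (hB : IsPGroup p B)
    (hAH : A ≤ H) (hBH : B ≤ H) :
    ∃ (Q : Sylow p G), ∃ c ∈ H, A ≤ (Q : Subgroup G) ∧ MulAut.conj c • B ≤ (Q : Subgroup G) := by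
  obtain ⟨R, hR, hAR⟩ := Cfsg.Lib.Block.exists_isSylowIn_ge hA hAH
  obtain ⟨c, hc, hBR⟩ := hR.exists_conj_le hB hBH
  obtain ⟨Q, hQ⟩ := hR.isPGroup.exists_le_sylow
  exact ⟨Q, c, hc, hAR.trans hQ, le_trans hBR hQ⟩

end Cfsg.Lib.Trans
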