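import Cfsg.Agent.Trans.QrcB

/-! The qrc-lemma. -/

set_option autoImplicit false

open scoped commutatorElement

namespace Cfsg.Lib.Trans.BB

open Cfsg Subgroup Cfsg.Lib.Solv Cfsg.Lib.Trans Cfsg.Lib.Trans.TJ Cfsg.Lib.Trans.MP
  Cfsg.Lib.Trans.PU Cfsg.Lib.Local.MSS

local notation "𝐂" A:max => Subgroup.centralizer (SetLike.coe A)
local notation "𝐍" A:max => Subgroup.normalizer (SetLike.coe A)

variable {G : Type*} [Group G] [Finite G] {V T M M₀ H : Subgroup G}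

local notation "𝐐" P:max => pCoreOf 2 P

theorem kp_short' (hT : IsSylowIn 2 T H) (hU : UniqMax T M H) (hV : IsElementaryAbelian 2 V)
    (h1 : V ≤ 𝐐 H) (h2 : T ≤ 𝐍 V) (h3 : ¬ H ≤ 𝐍 V) (h4 : thompsonSubgroupOf 2 T ≤ 𝐂 V)
    (h5 : ¬ thompsonSubgroupOf 2 T ≤ 𝐐 H) (h6 : H ≤ 𝐂 (omZ 2 T)) : KP True V T := by
  have hf := H.subtype_injective
  have vH := h1.trans (pCoreOf_le H)
  have e := map_subgroupOf_eq_of_le hT.le
  have e' := map_subgroupOf_eq_of_le vH
  have e2 : (⊤ : Subgroup H).map H.subtype = H := by rw [← MonoidHom.range_eq_map, range_subtype]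
  have e3 : (𝐐 (⊤ : Subgroup H)).map H.subtype = 𝐐 H := by
    rw [Local.map_pCoreOf_of_injective _ hf, e2]
  have := (kp_short hT.subgroupOf_top hU.subgroupOf (ea_subgroupOf hV H)
    ((map_le_map_iff_of_injective hf).1 (by rwa [e', e3]))
    ((le_normalizer_subgroupOf_iff hT.le vH).2 h2)
    (fun c => h3 (e2.ge.trans ((map_mono c).trans ((le_normalizer_map _).trans (by rw [e'])))))
    (fun x hx => (mem_cent_map_iff hf).1 (by rw [J_subgroupOf hT.le] at hx; rw [e']; exact h4 hx))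
    (fun c => h5 (by rw [← e3, ← e, ← map_J _ hf]; exact map_mono c))
    fun x _ => (mem_cent_map_iff hf).1 (by
      rw [show (omZ 2 (T.subgroupOf H)).map H.subtype = omZ 2 T from
        (map_omegaOneCenter _ hf).trans (congrArg _ e)]; exact h6 x.2)).map hf
  rwa [e, e'] at this

theorem qrc (hT : IsSylowIn 2 T ⊤) (hc : ∀ X, T ≤ X → 𝐐 X ≠ ⊥ → Local.CharP 2 X) (h1 : T ≤ M₀)
    (hH : 𝐐 H ≠ ⊥) (hU : UniqMax T M H) (hV : IsElementaryAbelian 2 V) (h2 : V ≤ M₀)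
    (h3 : M₀ ≤ 𝐍 V) (hR : 𝐐 M₀ = T ⊓ 𝐂 V) (hI : M ≤ 𝐍 (Local.resOf 2 M₀) ∨ M ≤ 𝐍 V) :
    (∃ R₀, R₀ ≠ ⊥ ∧ R₀ ≤ 𝐐 M₀ ∧ M₀ ⊔ H ≤ 𝐍 R₀) ∨ (¬ V ≤ 𝐐 H ∧ KP False V T) ∨ KP True V T := by
  refine or_iff_not_imp_left.2 fun hn => ?_
  push Not at hn
  have tH := hT.mono hU.le_top le_top
  have vR := Local.le_pCoreOf h2 h3 (ea_isPGroup hV)
  have nR := Local.le_normalizer_pCoreOf (p := 2) M₀
  have pR := isPGroup_pCoreOf (p := 2) M₀
  have rT := hR.le.trans inf_le_left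
  have vY := le_omZ hV vR (cent_symm (hR.le.trans inf_le_right))
  by_cases a : V ≤ 𝐐 H
  swap
  · obtain ⟨D, d1, d2⟩ : ∃ D, M ≤ 𝐍 D ∧ T ⊓ D = 𝐐 M₀ := by
      refine hI.elim (fun c => ?_) fun c => ⟨_, norm_cent c, hR.symm⟩
      have n := Local.le_normalizer_resOf (p := 2) M₀
      have q := Local.pCoreOf_eq_inf_of_normal (p := 2) (Local.resOf_le M₀) n
      have k : 𝐐 M₀ ≤ T ⊓ commLe (Local.resOf 2 M₀) (𝐐 (Local.resOf 2 M₀)) := le_inf rT
        (le_commLe_iff.2 ⟨((pCoreOf_le _).trans n).trans (norm_Q _), (Local.commutator_le_inf_of_le_normalizer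
          ((pCoreOf_le _).trans n) ((Local.resOf_le _).trans nR)).trans q.ge⟩)
      refine ⟨_, FrakM.le_normalizer_commLe c (c.trans (norm_Q _)), le_antisymm (Local.le_pCoreOf
        (inf_le_left.trans h1) ((Local.resOf_sup_sylowIn (hT.mono h1 le_top)).ge.trans (sup_le
          (Local.le_normalizer_of_commutator_le ((le_commLe_iff.1 inf_le_right).2.trans
            ((q.le.trans inf_le_left).trans k))) (norm_inf le_normalizer
          (FrakM.le_normalizer_commLe (h1.trans n) ((h1.trans n).trans (norm_Q _))))))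
        (hT.isPGroup.to_le inf_le_left)) k⟩
    have hY := (inf_le_inf_left T (TJ.centralizer_anti vY)).trans hR.ge
    refine .inl ⟨a, (kp_tall tH (hc H hU.le_top hH) rT (h1.trans nR) nR hY (fun c => a (vY.trans c))
      fun W w1 w2 w3 x hx w4 w5 => ?_).of_le vY (hR.ge.trans (le_centralizer_omZ _))⟩
    have xM := (hU.le_or_le (h1.trans w3)).resolve_left (fun c => hn W w1 w2 (sup_le w3 c)) ⟨hx, w4⟩
    have s := (hT.mono hU.le le_top).inf_normal d1
    rw [d2] at s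
    refine cj_eq_of_mem_normalizer (mem_normalizer_of_cj_le (le_sup_left.trans (s.eq_of_le
      (Local.isPGroup_sup (isPGroup_cj pR x) pR w5) le_sup_right (sup_le ?_ s.le)).le))
    exact (cj_mono x s.le).trans (cj_eq_of_mem_normalizer (norm_inf le_normalizer d1 xM)).le
  refine .inr ?_
  by_cases b : thompsonSubgroupOf 2 T ≤ 𝐂 V
  swap
  · obtain ⟨A, hA, e⟩ : ∃ A, MaxEA 2 T A ∧ ¬ A ≤ 𝐂 V := by
      by_contra! c
      exact b (J_le_iff.2 c)
    obtain ⟨b1, b2, b3⟩ := hA.replacement hV (vR.trans rT) ((hA.le.trans h1).trans h3)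
    exact kp_of_quad hV b1.le (ea_isPGroup b1.ea) (fun c => b3 (fun d => e (cent_symm (cent_iff.2 d)))
      (cent_iff.1 (cent_symm c))) ((b1.le.trans h1).trans h3) (cent_iff.2 b2) ((relIndex_le_of_best
        (b1.bestOffender hV (vR.trans rT))).trans (Nat.le_self_pow two_ne_zero _))
  have t0 : T ≠ ⊥ := fun e => hH (le_bot_iff.1 ((Local.pCoreOf_le_sylowIn tH).trans e.le))
  have jR := (le_inf (J_le T) b).trans hR.ge
  have bR : baumannSubgroupOf 2 T ≤ 𝐐 M₀ := (inf_le_inf_left T (TJ.centralizer_anti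
    ((le_omegaOne_of_ea hV (le_inf (vR.trans rT) (cent_symm b))).trans
      (omegaOne_centralizer_J_eq T).le))).trans hR.ge
  by_cases c : H ≤ 𝐂 (omZ 2 T)
  swap
  · obtain ⟨R₀, r1, r2, r3⟩ := common_normal_bau hT hc h1 hH hU c fun g hg => cj_eq_self_iff.1 (by
      rw [← bau_eq hT pR bR, ← bau_cj, cj_eq_of_mem_normalizer (nR hg)])
    exact (hn R₀ r1 (r2.trans bR) r3).elim
  refine kp_short' tH hU hV a (h1.trans h3) (fun d => hn V (fun e => ?_) vR (sup_le h3 d)) b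
    (fun d => hn _ (J_ne_bot hT.isPGroup t0) jR (sup_le ?_ ?_)) c
  · have e' : 𝐐 M₀ = T := hR.trans (inf_eq_left.2 (cent_symm (e.le.trans bot_le)))
    exact hn _ (omZ_ne_bot hT.isPGroup t0) ((omZ_le T).trans e'.ge)
      (sup_le (le_normalizer_omZ (e' ▸ nR)) (c.trans (cent_le_norm _)))
  · exact J_eq_of_le jR rT ▸ nR.trans (normalizer_le_normalizer_J _)
  · exact J_eq_of_le d (Local.pCoreOf_le_sylowIn tH) ▸
      (Local.le_normalizer_pCoreOf H).trans (normalizer_le_normalizer_J _)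

end Cfsg.Lib.Trans.BB
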