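import Cfsg.Agent.Solv.HallHigmanQuad
import Cfsg.Agent.Solv.PowCoset
import Cfsg.Agent.Solv.ClassNumber
import Cfsg.Agent.FT.BG4.Small
import Cfsg.Agent.FT.BG1.Coprime

/-!
Exceptional elements in the Hall–Higman theorem: if `x ∈ ⟨a⟩` and `y ∈ ⟨b⟩` have order `p` (odd)
and centralise every abelian subgroup of the `p'`-group `D` invariant under `a`, resp. `b`, then
`[x, y]` centralises `D`.
-/

set_option autoImplicit false

namespace Cfsg.Lib.Trans.Powell

open Subgroup Cfsg.Lib Cfsg.Lib.Solv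
open scoped commutatorElement

universe u

section
variable {G : Type*} [Group G]

/-- `x` centralises every `a`-invariant abelian subgroup of `D`. -/
def Exc (D : Subgroup G) (a x : G) : Prop :=
  ∀ A : Subgroup G, A ≤ D → (∀ u ∈ A, ∀ v ∈ A, u * v = v * u) → (∀ u ∈ A, a * u * a⁻¹ ∈ A) →
    ∀ u ∈ A, x * u = u * x

theorem Exc.mono {D D' : Subgroup G} {a x : G} (h : Exc D a x) (hD : D' ≤ D) : Exc D' a x :=
  fun A hA => h A (hA.trans hD)

theorem Exc.conj {D : Subgroup G} {a x t : G} (h : Exc D a x) (ht : t ∈ normalizer (D : Set G)) :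
    Exc D (t * a * t⁻¹) (t * x * t⁻¹) := by
  intro A hA hc hn u hu
  have key := h (A.comap (MulAut.conj t).toMonoidHom)
    (fun v hv => (mem_normalizer_iff.1 ht v).2 (hA hv))
    (fun v hv w hw => by
      have := hc _ hv _ hw
      simp only [MulEquiv.coe_toMonoidHom, MulAut.conj_apply] at this
      have h2 : t * (v * w) * t⁻¹ = t * (w * v) * t⁻¹ := by
        rw [← conj_mul, ← conj_mul, this]
      exact mul_left_cancel (mul_right_cancel h2))
    (fun v hv => by
      have := hn _ hv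
      simp only [mem_comap, MulEquiv.coe_toMonoidHom, MulAut.conj_apply] at this ⊢
      convert this using 1
      group)
    (t⁻¹ * u * t) (by
      simp only [mem_comap, MulEquiv.coe_toMonoidHom, MulAut.conj_apply]
      convert hu using 1
      group)
  calc t * x * t⁻¹ * u = t * (x * (t⁻¹ * u * t)) * t⁻¹ := by group
    _ = t * ((t⁻¹ * u * t) * x) * t⁻¹ := by rw [key]
    _ = u * (t * x * t⁻¹) := by group

theorem conj_pow_mem {B : Subgroup G} {a : G} (h : ∀ u ∈ B, a * u * a⁻¹ ∈ B) (n : ℕ) :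
    ∀ u ∈ B, a ^ n * u * (a ^ n)⁻¹ ∈ B := by
  induction n with
  | zero => simp
  | succ n ih =>
    intro u hu
    have := h _ (ih u hu)
    convert this using 1
    rw [pow_succ']
    group

theorem mem_norm [Finite G] {A : Subgroup G} {g : G} (h : ∀ x ∈ A, g * x * g⁻¹ ∈ A) :
    g ∈ normalizer (A : Set G) := mem_normalizer_fintype h

/-- Passing to `a ^ p` on a subgroup commuting with its conjugates under `⟨a⟩ \ ⟨a ^ p⟩`. -/
theorem Exc.pow {D R : Subgroup G} {a x : G} {p : ℕ} (h : Exc D a x)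
    (haD : ∀ u ∈ D, a * u * a⁻¹ ∈ D) (hRD : R ≤ D)
    (hc : ∀ k : ℕ, ¬ p ∣ k → ∀ u ∈ R, ∀ v ∈ R, Commute u (a ^ k * v * (a ^ k)⁻¹)) :
    Exc R (a ^ p) x := by
  intro B hB hBc hBn u hu
  have key : ∀ k : ℕ, ∀ u ∈ B, ∀ v ∈ B, Commute u (a ^ k * v * (a ^ k)⁻¹) := by
    intro k u hu v hv
    by_cases hk : p ∣ k
    · obtain ⟨j, rfl⟩ := hk
      rw [pow_mul]
      exact hBc _ hu _ (conj_pow_mem hBn j v hv)
    · exact hc k hk u (hB hu) v (hB hv)
  have key2 : ∀ i j : ℕ, i ≤ j → ∀ u ∈ B, ∀ v ∈ B,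
      Commute (a ^ i * u * (a ^ i)⁻¹) (a ^ j * v * (a ^ j)⁻¹) := by
    intro i j hij u hu v hv
    obtain ⟨k, rfl⟩ := Nat.exists_eq_add_of_le hij
    have := (key k u hu v hv).map (MulAut.conj (a ^ i))
    simp only [MulAut.conj_apply] at this
    convert this using 1
    rw [pow_add]
    group
  let S : Set G := {w | ∃ i : ℕ, ∃ u ∈ B, w = a ^ i * u * (a ^ i)⁻¹}
  have hS : ∀ v ∈ S, ∀ w ∈ S, v * w = w * v := by
    rintro _ ⟨i, u, hu, rfl⟩ _ ⟨j, v, hv, rfl⟩
    rcases le_total i j with hij | hij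
    · exact key2 i j hij u hu v hv
    · exact (key2 j i hij v hv u hu).symm
  refine h (closure S) ?_ ?_ ?_ u (subset_closure ⟨0, u, hu, by simp⟩)
  · rw [closure_le]
    rintro _ ⟨i, u, hu, rfl⟩
    exact conj_pow_mem haD i u (hRD (hB hu))
  · have h1 : closure S ≤ centralizer (closure S : Set G) := by
      rw [centralizer_closure, closure_le]
      exact fun v hv w hw => hS w hw v hv
    exact fun v hv w hw => h1 hw v hv
  · intro w hw
    have h1 : closure S ≤ (closure S).comap (MulAut.conj a).toMonoidHom := by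
      rw [closure_le]
      rintro _ ⟨i, u, hu, rfl⟩
      refine subset_closure ⟨i + 1, u, hu, ?_⟩
      simp only [MulEquiv.coe_toMonoidHom, MulAut.conj_apply]
      rw [pow_succ']
      group
    exact h1 hw

end

/-- The statement proved by induction on `|T|`. -/
def Comm (p : ℕ) {G : Type*} [Group G] (T D : Subgroup G) : Prop :=
  ∀ a ∈ T, ∀ b ∈ T, ∀ x ∈ zpowers a, ∀ y ∈ zpowers b, x ^ p = 1 → y ^ p = 1 → Exc D a x →
    Exc D b y → D ≤ centralizer {⁅x, y⁆}

variable {p : ℕ} [hp : Fact p.Prime]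

/-- The faithful case. -/
theorem comm_of_faithful {G : Type*} [Group G] [Finite G] (hp2 : p ≠ 2) {T Q : Subgroup G}
    (hT : IsPGroup p T) (hQ : (Nat.card Q).Coprime p) (hTQ : T ≤ normalizer (Q : Set G))
    (hf : T ⊓ centralizer (Q : Set G) = ⊥) (hQQ : ⁅Q, Q⁆ ≤ centralizer (Q : Set G))
    (hmin : ∀ R : Subgroup G, R < Q → T ≤ normalizer (R : Set G) → R ≤ centralizer (Q : Set G))
    (ih : ∀ T₀ R : Subgroup G, T₀ < T → R ≤ Q → T₀ ≤ normalizer (R : Set G) → Comm p T₀ R) :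
    Comm p T Q := by
  classical
  let X : Set G := {x | x ^ p = 1 ∧ ∃ a ∈ T, x ∈ zpowers a ∧ Exc Q a x}
  set N := closure X with hN
  have hNT : N ≤ T := by
    rw [closure_le]
    rintro x ⟨-, a, ha, hx, -⟩
    exact zpowers_le.2 ha hx
  have hTN : T ≤ normalizer (N : Set G) := by
    intro t ht
    refine mem_norm fun w hw => ?_
    have h1 : N ≤ N.comap (MulAut.conj t).toMonoidHom := by
      rw [closure_le]
      rintro x ⟨hxp, a, ha, hx, he⟩
      refine subset_closure ⟨?_, t * a * t⁻¹, T.mul_mem (T.mul_mem ht ha) (T.inv_mem ht), ?_,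
        he.conj (hTQ ht)⟩
      · simp only [MulEquiv.coe_toMonoidHom, MulAut.conj_apply]
        rw [conj_pow, hxp]
        group
      · obtain ⟨n, rfl⟩ := hx
        exact ⟨n, by simp [conj_zpow]⟩
    exact h1 hw
  set Z := Q ⊓ centralizer (Q : Set G) with hZ
  have hTZ : T ≤ normalizer (Z : Set G) := le_normalizer_inf_centralizer hTQ hTQ
  have hNZ : N ≤ centralizer (Z : Set G) := by
    rw [closure_le]
    rintro x ⟨-, a, ha, -, he⟩ u hu
    exact (he Z inf_le_left (fun u hu v hv => hv.2 u hu.1)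
      (fun u hu => (mem_normalizer_iff.1 (hTZ ha) u).1 hu) u hu).symm
  intro a ha b hb x hx y hy hxp hyp hxe hye
  have hxN : x ∈ N := subset_closure ⟨hxp, a, ha, hx, hxe⟩
  have hyN : y ∈ N := subset_closure ⟨hyp, b, hb, hy, hye⟩
  have hcN : ⁅x, y⁆ ∈ N := N.mul_mem (N.mul_mem (N.mul_mem hxN hyN) (N.inv_mem hxN)) (N.inv_mem hyN)
  have hZc : Z ≤ centralizer {⁅x, y⁆} := fun u hu =>
    mem_centralizer_singleton_iff.2 (hNZ hcN u hu)
  by_cases hcyc : IsCyclic N
  · have : ⁅x, y⁆ = 1 := by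
      rw [commutatorElement_eq_one_iff_mul_comm]
      have := hcyc.commutative.is_comm.comm (⟨x, hxN⟩ : N) ⟨y, hyN⟩
      exact congrArg Subtype.val this
    rw [this]
    exact fun u _ => mem_centralizer_singleton_iff.2 (by simp)
  have hNp : IsPGroup p N := hT.to_le hNT
  obtain ⟨E, ⟨hEN, ⟨hEc, hEp⟩, hEcard⟩, -, hTE⟩ := FT.odd_norm_p2Elem_exists hp.out hT hNp (by
    obtain ⟨n, hn⟩ := IsPGroup.iff_card.1 hNp
    rw [hn]
    exact (hp.out.odd_of_ne_two hp2).pow) hTN hcyc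
  have hET : E ≤ T := hEN.trans hNT
  have hEp' : IsPGroup p E := hT.to_le hET
  have hE0 : E ≠ ⊥ := by
    rintro rfl
    rw [card_bot] at hEcard
    exact (Nat.one_lt_pow two_ne_zero hp.out.one_lt).ne hEcard
  have hEE : ∀ e ∈ E, ∀ e' ∈ E, e * e' = e' * e := fun e he e' he' =>
    congrArg Subtype.val (hEc.is_comm.comm (⟨e, he⟩ : E) ⟨e', he'⟩)
  have hord : ∀ e ∈ E, e ≠ 1 → Nat.card (zpowers e) = p := fun e he h1 => by
    rw [Nat.card_zpowers]
    exact orderOf_eq_prime (hEp e he) h1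
  have hgen2 : ∀ e ∈ E, e ≠ 1 → ∀ e' ∈ E, e' ∉ zpowers e → zpowers e ⊔ zpowers e' = E := by
    intro e he h1 e' he' h2
    refine (PG.eq_or_eq_of_card_eq_prime_mul hp.out (M := zpowers e) (K := E)
      (by rw [hord e he h1, hEcard, pow_two]) le_sup_left
      (sup_le (zpowers_le.2 he) (zpowers_le.2 he'))).resolve_left fun h => h2 ?_
    rw [← h]
    exact mem_sup_right (mem_zpowers e')
  obtain ⟨z, hzE, hzT, -, hzo⟩ := PG.exists_mem_centralizer_orderOf_eq hT hEp' hTE hE0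
  have hz1 : z ≠ 1 := by
    rintro rfl
    rw [orderOf_one] at hzo
    exact hp.out.one_lt.ne hzo
  have hproper : ∀ e ∈ T, e ≠ 1 → Q ⊓ centralizer {e} < Q := by
    intro e he h1
    refine lt_of_le_of_ne inf_le_left fun h => h1 ?_
    have : e ∈ T ⊓ centralizer (Q : Set G) := ⟨he, fun u hu =>
      mem_centralizer_singleton_iff.1 (h.ge hu).2⟩
    rwa [hf] at this
  have hnorm : ∀ t ∈ T, ∀ e : G, t * e = e * t → t ∈ normalizer
      ((Q ⊓ centralizer {e} : Subgroup G) : Set G) := by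
    intro t ht e hte
    refine mem_norm fun u hu => ⟨(mem_normalizer_iff.1 (hTQ ht) u).1 hu.1, ?_⟩
    have h1 := mem_centralizer_singleton_iff.1 hu.2
    refine mem_centralizer_singleton_iff.2 ?_
    calc t * u * t⁻¹ * e = t * u * t⁻¹ * (e * t) * t⁻¹ := by group
      _ = t * (u * e) * t⁻¹ := by rw [← hte]; group
      _ = (t * e) * u * t⁻¹ := by rw [h1]; group
      _ = e * (t * u * t⁻¹) := by rw [hte]; group
  have hzZ : Q ⊓ centralizer {z} ≤ Z := le_inf inf_le_left
    (hmin _ (hproper z (hET hzE) hz1) fun t ht => hnorm t ht z (hzT t ht))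
  have hcop : ∀ e ∈ E, ∀ R ≤ Q, (Nat.card (zpowers e)).Coprime (Nat.card R) := by
    intro e he R hR
    rw [Nat.card_zpowers]
    exact ((hQ.symm.coprime_dvd_left (orderOf_dvd_of_pow_eq_one (hEp e he)))).coprime_dvd_right
      (card_dvd_of_le hR)
  -- commuting of the fixed-point subgroups
  have hcomm : ∀ e ∈ E, ∀ e' ∈ E, zpowers e ⊔ zpowers e' = E →
      Q ⊓ centralizer {e'} ≤ centralizer ((Q ⊓ centralizer {e} : Subgroup G) : Set G) := by
    intro e he e' he' hee
    have h1 : ⁅⁅zpowers e, Q⁆, Q ⊓ centralizer {e}⁆ = ⊥ := by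
      apply commutator_commutator_eq_bot_of_rotate
      · rw [commutator_eq_bot_iff_le_centralizer, le_centralizer_iff]
        refine ((zpowers_le.2 (hEN he)).trans hNZ).trans (centralizer_le ?_)
        exact le_inf ((commutator_mono le_rfl inf_le_left).trans (commutator_le_self Q))
          ((commutator_mono le_rfl inf_le_left).trans hQQ)
      · rw [commutator_eq_bot_iff_le_centralizer.2 (show Q ⊓ centralizer {e} ≤
          centralizer (zpowers e : Set G) by
            rw [HH.centralizer_zpowers_eq]; exact inf_le_right), commutator_bot_left]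
    rw [← Coprime.commutator_sup_centralizer (K := Q ⊓ centralizer {e'}) (A := zpowers e)
      (zpowers_le.2 (hnorm e (hET he) e' (hEE e he e' he'))) (hcop e he _ inf_le_left)
      (Or.inl (Coprime.isSolvable_zpowers e))]
    refine sup_le ?_ ?_
    · rw [← commutator_eq_bot_iff_le_centralizer, eq_bot_iff, ← h1, commutator_comm (zpowers e)]
      exact commutator_mono (commutator_mono inf_le_left le_rfl) le_rfl
    · refine le_trans (le_trans ?_ hzZ) (inf_le_right.trans (centralizer_le inf_le_left))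
      refine le_inf (inf_le_left.trans inf_le_left) ?_
      have : E ≤ centralizer ((Q ⊓ centralizer {e'} ⊓ centralizer (zpowers e : Set G) :
          Subgroup G) : Set G) := by
        rw [← hee]
        refine sup_le (le_centralizer_iff.1 inf_le_right) (zpowers_le.2 fun u hu => ?_)
        exact mem_centralizer_singleton_iff.1 hu.1.2
      exact fun u hu => mem_centralizer_singleton_iff.2 (this hzE u hu)
  set T₀ := T ⊓ centralizer (E : Set G) with hT₀
  have hnz : ∀ e ∈ E, e ≠ 1 → ¬ Q ⊓ centralizer {e} ≤ Z → e ∉ zpowers z := by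
    intro e he h1 hne hez
    refine hne (le_trans (inf_le_inf_left _ ?_) hzZ)
    have : zpowers e = zpowers z := eq_of_le_of_card_ge (zpowers_le.2 hez)
      (by rw [hord e he h1, hord z hzE hz1])
    rw [← HH.centralizer_zpowers_eq, ← HH.centralizer_zpowers_eq, this]
  have hmove : ∀ e ∈ E, e ≠ 1 → ¬ Q ⊓ centralizer {e} ≤ Z → ∀ t ∈ T, t ∉ T₀ →
      ∀ u ∈ Q ⊓ centralizer {e}, ∀ v ∈ Q ⊓ centralizer {e}, Commute u (t * v * t⁻¹) := by
    intro e he h1 hne t ht ht0 u hu v hv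
    have he' : t * e * t⁻¹ ∈ E := (mem_normalizer_iff.1 (hTE ht) e).1 he
    have h2 : t * e * t⁻¹ ∉ zpowers e := by
      intro h
      refine ht0 ⟨ht, ?_⟩
      have h3 : zpowers t ≤ centralizer (zpowers e : Set G) :=
        PG.le_centralizer_of_card_eq_prime (hT.to_le (zpowers_le.2 ht)) (zpowers_le.2
          (mem_norm (by
            rintro _ ⟨n, rfl⟩
            simp only
            rw [← conj_zpow]
            exact zpow_mem h n))) (hord e he h1)
      refine zpowers_le.1 (le_centralizer_iff.2 ?_)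
      rw [← hgen2 z hzE hz1 e he (hnz e he h1 hne)]
      refine sup_le (zpowers_le.2 fun w hw => hzT w (zpowers_le.2 ht hw)) (le_centralizer_iff.1 h3)
    refine (hcomm e he _ he' (hgen2 e he h1 _ he' h2) (x := t * v * t⁻¹)
      ⟨(mem_normalizer_iff.1 (hTQ ht) v).1 hv.1, mem_centralizer_singleton_iff.2 ?_⟩ u hu)
    rw [conj_mul, conj_mul, mem_centralizer_singleton_iff.1 hv.2]
  have hEnc : ¬ IsCyclic E := by
    intro h
    obtain ⟨g, hg⟩ := h.exists_ofOrder_eq_natCard
    have h1 : orderOf g ∣ p := orderOf_dvd_of_pow_eq_one (Subtype.ext (hEp g g.2))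
    rw [hg, hEcard] at h1
    have := Nat.le_of_dvd hp.out.pos h1
    nlinarith [hp.out.one_lt]
  have hgen : ∀ X : Subgroup G, (∀ e ∈ E, e ≠ 1 → Q ⊓ centralizer {e} ≤ X) → Q ≤ X := fun X h =>
    FT.coprime_abelian_gen_cent1 hEc hEnc (hET.trans hTQ) (hEcard ▸ hQ.pow_right 2) h
  have hpow : ∀ t ∈ T, t ^ p ∈ T₀ := by
    intro t ht
    refine ⟨T.pow_mem ht p, fun e he => ?_⟩
    have h1 := (PG.commutator_le_of_card_eq_prime_mul hT hEp' (M := zpowers z)
      (fun s hs => mem_norm (by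
        rintro _ ⟨n, rfl⟩
        simp only
        rw [← conj_zpow, hzT s hs, mul_inv_cancel_right]
        exact ⟨n, rfl⟩)) hTE (zpowers_le.2 hzE)
      (by rw [hord z hzE hz1, hEcard, pow_two])).1
    have h2 : ⁅t, e⁆ ∈ zpowers z := by
      rw [← commutatorElement_inv]
      exact inv_mem (h1 (commutator_mem_commutator he ht))
    have h3 : t * ⁅t, e⁆ = ⁅t, e⁆ * t := by
      obtain ⟨n, hn⟩ := h2
      rw [← hn]
      exact (Commute.zpow_right (hzT t ht) n).eq
    have h4 : ∀ n : ℕ, t ^ n * e * (t ^ n)⁻¹ = ⁅t, e⁆ ^ n * e := by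
      intro n
      induction n with
      | zero => simp
      | succ n ih =>
        calc t ^ (n + 1) * e * (t ^ (n + 1))⁻¹ = t * (t ^ n * e * (t ^ n)⁻¹) * t⁻¹ := by
              rw [pow_succ']; group
          _ = (t * ⁅t, e⁆ ^ n) * e * t⁻¹ := by rw [ih]; group
          _ = ⁅t, e⁆ ^ n * (⁅t, e⁆ * e) := by
              rw [(Commute.pow_right h3 n).eq, commutatorElement_def]; group
          _ = ⁅t, e⁆ ^ (n + 1) * e := by rw [pow_succ, mul_assoc]
    have h5 := h4 p
    rw [hEp _ (zpowers_le.2 hzE h2), one_mul, mul_inv_eq_iff_eq_mul] at h5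
    exact h5.symm
  have hroot : ∀ a ∈ T, ∀ x ∈ zpowers a, x ^ p = 1 → Exc Q a x → ∀ e ∈ E, e ≠ 1 →
      ¬ Q ⊓ centralizer {e} ≤ Z →
      ∃ a' ∈ T₀, x ∈ zpowers a' ∧ Exc (Q ⊓ centralizer {e}) a' x := by
    intro a ha x hx hxp hxe e he h1 hne
    by_cases ha0 : a ∈ T₀
    · exact ⟨a, ha0, hx, hxe.mono inf_le_left⟩
    have key : ∀ e ∈ E, e ≠ 1 → ¬ Q ⊓ centralizer {e} ≤ Z →
        Exc (Q ⊓ centralizer {e}) (a ^ p) x := fun e he h1 hne =>
      hxe.pow (fun u hu => (mem_normalizer_iff.1 (hTQ ha) u).1 hu) inf_le_left fun k hk =>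
        hmove e he h1 hne _ (T.pow_mem ha k) fun h => ha0 (mem_of_pow_mem_of_pow_mem
          (hp.out.coprime_iff_not_dvd.2 hk) (hpow a ha) h)
    refine ⟨a ^ p, hpow a ha, ?_, key e he h1 hne⟩
    obtain ⟨m, rfl⟩ := mem_powers_iff_mem_zpowers.2 hx
    simp only at hxp hxe key ⊢
    by_cases hm : p ∣ m
    · obtain ⟨j, rfl⟩ := hm
      rw [pow_mul]
      exact npow_mem_zpowers _ _
    obtain ⟨k, hk⟩ := PG.exists_pow_prime_pow_eq_one hT ha
    have h2 : a ∈ zpowers (a ^ m) := mem_of_pow_mem_of_pow_mem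
      ((hp.out.coprime_iff_not_dvd.2 hm).pow_left k) (hk ▸ one_mem _) (mem_zpowers _)
    have h3 : a ^ p = 1 := by
      obtain ⟨n, hn⟩ := h2
      rw [← hn, ← zpow_natCast, ← zpow_mul, mul_comm, zpow_mul, zpow_natCast, hxp, one_zpow]
    have h4 : Q ≤ centralizer {a ^ m} := by
      refine hgen _ fun e he h1 u hu => mem_centralizer_singleton_iff.2 ?_
      by_cases hne : Q ⊓ centralizer {e} ≤ Z
      · exact hNZ (subset_closure ⟨hxp, a, ha, hx, hxe⟩) u (hne hu)
      · refine (key e he h1 hne (zpowers u) (zpowers_le.2 hu) ?_ (by simp [h3]) u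
          (mem_zpowers u)).symm
        rintro _ ⟨i, rfl⟩ _ ⟨j, rfl⟩
        exact (Commute.zpow_zpow_self u i j).eq
    have h5 : a ^ m ∈ T ⊓ centralizer (Q : Set G) :=
      ⟨T.pow_mem ha m, fun u hu => mem_centralizer_singleton_iff.1 (h4 hu)⟩
    rw [hf, mem_bot] at h5
    rw [h5]
    exact one_mem _
  refine hgen _ fun e he h1 => ?_
  by_cases hne : Q ⊓ centralizer {e} ≤ Z
  · exact hne.trans hZc
  have hT₀e : T₀ ≤ normalizer ((Q ⊓ centralizer {e} : Subgroup G) : Set G) := fun t ht =>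
    hnorm t ht.1 e (ht.2 e he).symm
  have hlt : T₀ < T := lt_of_le_of_ne inf_le_left fun h =>
    hne (le_inf inf_le_left (hmin _ (hproper e (hET he) h1) (h ▸ hT₀e)))
  obtain ⟨a', ha', hx', hxe'⟩ := hroot a ha x hx hxp hxe e he h1 hne
  obtain ⟨b', hb', hy', hye'⟩ := hroot b hb y hy hyp hye e he h1 hne
  exact ih T₀ _ hlt inf_le_left hT₀e a' ha' b' hb' x hx' y hy' hxp hyp hxe' hye'

theorem comm_aux (hp2 : p ≠ 2) (n : ℕ) : ∀ (G : Type u) [Group G] [Finite G] (T D : Subgroup G),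
    Nat.card T = n → IsPGroup p T → (Nat.card D).Coprime p → T ≤ normalizer (D : Set G) →
      Comm p T D := by
  induction n using Nat.strong_induction_on with
  | _ n ih =>
  intro G _ _ T D hn hT hD hTD a ha b hb x hx y hy hxp hyp hxe hye
  by_contra hne
  have hxT : x ∈ T := zpowers_le.2 ha hx
  have hyT : y ∈ T := zpowers_le.2 hb hy
  have hcT : ⁅x, y⁆ ∈ T := T.mul_mem (T.mul_mem (T.mul_mem hxT hyT) (T.inv_mem hxT)) (T.inv_mem hyT)
  let S : Set G := {w | ∃ t ∈ T, w = t * ⁅x, y⁆ * t⁻¹}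
  have hYT : closure S ≤ T := by
    rw [closure_le]
    rintro _ ⟨t, ht, rfl⟩
    exact T.mul_mem (T.mul_mem ht hcT) (T.inv_mem ht)
  have hTY : T ≤ normalizer (closure S : Set G) := fun s hs => mem_norm fun w hw => by
    have h1 : closure S ≤ (closure S).comap (MulAut.conj s).toMonoidHom := by
      rw [closure_le]
      rintro _ ⟨t, ht, rfl⟩
      refine subset_closure ⟨s * t, T.mul_mem hs ht, ?_⟩
      simp only [MulEquiv.coe_toMonoidHom, MulAut.conj_apply]
      group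
    exact h1 hw
  obtain ⟨m, hm⟩ := IsPGroup.iff_card.1 hT
  obtain ⟨q, Q, hq, hQD, hQ, hTQ, hQY, -, hCQ, hmin⟩ := HH.exists_minimal hTD hYT hTY
    (hm ▸ hD.symm.pow_left m) (Or.inl (isSolvable_of_isPGroup hT)) fun h =>
      hne (h.trans (centralizer_le (by
        rintro _ rfl
        exact subset_closure ⟨1, T.one_mem, by simp⟩)))
  have := Fact.mk hq
  have hQp : (Nat.card Q).Coprime p := hD.coprime_dvd_left (card_dvd_of_le hQD)
  have hmin' : ∀ R : Subgroup G, R < Q → T ≤ normalizer (R : Set G) →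
      R ≤ centralizer (Q : Set G) := fun R h1 h2 => (le_inf h1.le (hmin R h1 h2)).trans hCQ
  suffices h : Q ≤ centralizer {⁅x, y⁆} by
    refine hQY (le_centralizer_iff.2 ?_)
    rw [closure_le]
    rintro _ ⟨t, ht, rfl⟩ u hu
    have h1 := mem_centralizer_singleton_iff.1
      (h ((mem_normalizer_iff.1 (hTQ (T.inv_mem ht)) u).1 hu))
    calc u * (t * ⁅x, y⁆ * t⁻¹) = t * (t⁻¹ * u * t⁻¹⁻¹ * ⁅x, y⁆) * t⁻¹ := by group
      _ = t * ⁅x, y⁆ * t⁻¹ * u := by rw [h1]; group
  by_cases hf : T ⊓ centralizer (Q : Set G) = ⊥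
  · have hQ0 : Q ≠ ⊥ := by
      rintro rfl
      exact hQY bot_le
    exact comm_of_faithful hp2 hT hQp hTQ hf
      (hmin' _ (PG.commutator_lt hQ hQ le_normalizer hQ0) (le_normalizer_commutator hTQ hTQ)) hmin'
      (fun T₀ R h1 h2 h3 => ih _ (hn ▸ card_lt_of_lt h1) G T₀ R rfl (hT.to_le h1.le)
        (hQp.coprime_dvd_left (card_dvd_of_le h2)) h3) a ha b hb x hx y hy hxp hyp (hxe.mono hQD)
      (hye.mono hQD)
  set C := T ⊓ centralizer (Q : Set G) with hC
  set H := T ⊔ Q with hH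
  have hHC : H ≤ normalizer (C : Set G) := sup_le (le_normalizer_inf_centralizer le_normalizer hTQ)
    ((le_centralizer_iff.1 inf_le_right).trans (centralizer_le_normalizer _))
  have hCH : C ≤ H := inf_le_left.trans le_sup_left
  have : (C.subgroupOf H).Normal := (normal_subgroupOf_iff_le_normalizer hCH).2 hHC
  let f := QuotientGroup.mk' (C.subgroupOf H)
  have hinj : ∀ u : H, (u : G) ∈ Q → f u = 1 → u = 1 := by
    intro u hu h
    have h1 : (u : G) ∈ T ⊓ Q := ⟨((QuotientGroup.eq_one_iff u).1 h : (u : G) ∈ C).1, hu⟩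
    rw [inf_eq_bot_of_coprime (hm ▸ hQp.symm.pow_left m), mem_bot] at h1
    exact Subtype.ext h1
  have hQn : ∀ t : H, ∀ u : H, (u : G) ∈ Q → ((t * u * t⁻¹ : H) : G) ∈ Q := fun t u hu =>
    (mem_normalizer_iff.1 ((sup_le hTQ le_normalizer : H ≤ _) t.2) u).1 hu
  have hcomm : ∀ t u : H, (u : G) ∈ Q → f t * f u = f u * f t → (t : G) * u = u * t := by
    intro t u hu h
    have h1 := hinj (t * u * t⁻¹ * u⁻¹) (Q.mul_mem (hQn t u hu) (Q.inv_mem hu)) (by
      rw [map_mul, map_mul, map_mul, map_inv, map_inv, h]; group)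
    rw [mul_inv_eq_one, mul_inv_eq_iff_eq_mul] at h1
    exact congrArg Subtype.val h1
  have hexc : ∀ a x : H, Exc Q (a : G) x → Exc ((Q.subgroupOf H).map f) (f a) (f x) := by
    intro a x he A hA hAc hAn u hu
    obtain ⟨u, huQ, rfl⟩ := hA hu
    have := he ((A.comap f ⊓ Q.subgroupOf H).map H.subtype) (by
      rintro _ ⟨v, hv, rfl⟩
      exact hv.2) (by
      rintro _ ⟨v, hv, rfl⟩ _ ⟨w, hw, rfl⟩
      exact hcomm v w hw.2 (hAc _ hv.1 _ hw.1)) (by
      rintro _ ⟨v, hv, rfl⟩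
      refine ⟨a * v * a⁻¹, ⟨?_, hQn a v hv.2⟩, rfl⟩
      have := hAn _ hv.1
      rwa [← map_inv, ← map_mul, ← map_mul] at this) u ⟨u, ⟨hu, huQ⟩, rfl⟩
    rw [← map_mul, ← map_mul, show x * u = u * x from Subtype.ext this]
  have hTH : T ≤ H := le_sup_left
  have hlt : Nat.card ((T.subgroupOf H).map f) < n := by
    have h1 := ClassNum.card_eq_card_map_mul f (T.subgroupOf H)
    rw [QuotientGroup.ker_mk',
      inf_eq_right.2 (show C.subgroupOf H ≤ T.subgroupOf H from comap_mono inf_le_left),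
      show Nat.card (T.subgroupOf H) = _ from Coprime.card_subgroupOf hTH,
      Coprime.card_subgroupOf hCH, hn] at h1
    rw [h1]
    exact lt_mul_of_one_lt_right Nat.card_pos ((one_lt_card_iff_ne_bot C).2 hf)
  have key := ih _ hlt _ ((T.subgroupOf H).map f) ((Q.subgroupOf H).map f) rfl
    ((hT.comap_subtype).map f)
    (hQp.coprime_dvd_left ((Subgroup.card_map_dvd _ f).trans
      (Coprime.card_subgroupOf (le_sup_right : Q ≤ H)).dvd))
    (by
      rintro _ ⟨t, -, rfl⟩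
      refine mem_norm ?_
      rintro _ ⟨u, hu, rfl⟩
      exact ⟨t * u * t⁻¹, hQn t u hu, by simp⟩)
    (f ⟨a, hTH ha⟩) ⟨_, ha, rfl⟩ (f ⟨b, hTH hb⟩) ⟨_, hb, rfl⟩ (f ⟨x, hTH hxT⟩) (by
      obtain ⟨k, rfl⟩ := hx
      exact ⟨k, (map_zpow f _ k).symm⟩) (f ⟨y, hTH hyT⟩) (by
      obtain ⟨k, rfl⟩ := hy
      exact ⟨k, (map_zpow f _ k).symm⟩)
    (by rw [← map_pow, show (⟨x, hTH hxT⟩ : H) ^ p = 1 from Subtype.ext hxp, map_one])
    (by rw [← map_pow, show (⟨y, hTH hyT⟩ : H) ^ p = 1 from Subtype.ext hyp, map_one])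
    (hexc _ _ (hxe.mono hQD)) (hexc _ _ (hye.mono hQD))
  intro u hu
  have h1 := mem_centralizer_singleton_iff.1
    (key ⟨⟨u, (le_sup_right : Q ≤ H) hu⟩, hu, rfl⟩)
  rw [← map_commutatorElement] at h1
  exact mem_centralizer_singleton_iff.2 (hcomm _ _ hu h1.symm).symm

/-- **Exceptional elements commute** on the `p'`-group. -/
theorem comm {G : Type*} [Group G] [Finite G] (hp2 : p ≠ 2) {T D : Subgroup G} (hT : IsPGroup p T)
    (hD : (Nat.card D).Coprime p) (hTD : T ≤ normalizer (D : Set G)) : Comm p T D :=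
  comm_aux hp2 _ G T D rfl hT hD hTD

open HH Module in
/-- The `p ^ k`-th powers of a Sylow subgroup of exponent `p ^ (k + 1)` commute modulo `O_p`. -/
theorem commutator_pow_mem_pCore {G : Type u} [Group G] [Finite G] (hp2 : p ≠ 2) {k : ℕ}
    (hG : IsPSolvable p G) (h0 : pPrimeCore p G = ⊥) (h : SylowExp p (k + 1) G) (P : Sylow p G)
    {a b : G} (ha : a ∈ (P : Subgroup G)) (hb : b ∈ (P : Subgroup G)) :
    ⁅a ^ p ^ k, b ^ p ^ k⁆ ∈ pCore p G := by
  obtain ⟨S⟩ := nonempty_secRep_frattini p (pCore p G) (pCore_isPGroup p G)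
  have hker := S.ker_eq_pCore (hG.centralizer_pCore_le h0)
  let f := QuotientGroup.mk' (pCore p G)
  have h1 : ∀ a ∈ (P : Subgroup G), f a ^ p ^ (k + 1) = 1 := fun a ha => by
    rw [← map_pow, h P a ha, map_one]
  have hexc : ∀ a ∈ (P : Subgroup G), Exc (pPrimeCore p _) (f a) (f a ^ p ^ k) := by
    intro a ha A hA hAc hAn
    by_contra hne
    rcases thmB_of_not_le_centralizer p (S.lift _ hker.ge) (N := A)
      ((coprime_card_pPrimeCore p _).coprime_dvd_left (card_dvd_of_le hA))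
      (fun g _ hg => S.lift_injective _ hker (hg.trans (map_one _).symm)) (mem_norm hAn) (h1 a ha)
      (fun hle => hne fun u hu => (mem_centralizer_singleton_iff.1 (hle hu)).symm)
      (h.sub_one_pow_eq_zero (pCore_isPGroup p G) S P ha) with h2 | h2
    · have := pow_pos hp.out.pos (k + 1)
      omega
    · obtain ⟨n, q, m, -, -, -, -, -, ⟨Q, hQ, -, hc⟩, -⟩ := h2
      exact hc ⟨⟨fun u v => Subtype.ext (hAc _ (hQ u.2) _ (hQ v.2))⟩⟩
  have h2 := comm hp2 (P.isPGroup'.map f) (coprime_card_pPrimeCore p _) le_normalizer_of_normal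
    (f a) ⟨a, ha, rfl⟩ (f b) ⟨b, hb, rfl⟩ _ (npow_mem_zpowers _ (p ^ k)) _
    (npow_mem_zpowers _ (p ^ k)) (by rw [← pow_mul, ← pow_succ, h1 a ha])
    (by rw [← pow_mul, ← pow_succ, h1 b hb]) (hexc a ha) (hexc b hb)
  rw [← map_pow, ← map_pow, ← map_commutatorElement] at h2
  by_contra hne
  have hc : ⁅a ^ p ^ k, b ^ p ^ k⁆ ∈ (P : Subgroup G) :=
    commutator_le_self _ (commutator_mem_commutator (pow_mem ha _) (pow_mem hb _))
  exact not_le_centralizer_pPrimeCore (hG.quotient _) (pCore_quotient_pCore p G)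
    (fun h3 => hne ((QuotientGroup.eq_one_iff _).1 h3)) (h1 _ hc) h2

open HH Module in
/-- If the `p ^ k`-th powers of a Sylow subgroup of exponent `p ^ (k + 1)` commute then they lie in
`O_p`. -/
theorem pow_mem_pCore {G : Type u} [Group G] [Finite G] (hp2 : p ≠ 2) {k : ℕ}
    (hG : IsPSolvable p G) (h0 : pPrimeCore p G = ⊥) (h : SylowExp p (k + 1) G) (P : Sylow p G)
    (hc : ∀ a ∈ (P : Subgroup G), ∀ b ∈ (P : Subgroup G), Commute (a ^ p ^ k) (b ^ p ^ k))
    {a : G} (ha : a ∈ (P : Subgroup G)) : a ^ p ^ k ∈ pCore p G := by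
  obtain ⟨S⟩ := nonempty_secRep_frattini p (pCore p G) (pCore_isPGroup p G)
  have hker := S.ker_eq_pCore (hG.centralizer_pCore_le h0)
  let f := QuotientGroup.mk' (pCore p G)
  have h1 : f a ^ p ^ (k + 1) = 1 := by rw [← map_pow, h P a ha, map_one]
  have hs : (S.ρ a - 1) ^ (p ^ k + (p ^ k - 1)) = 0 := by
    ext w
    obtain ⟨v, hv, rfl⟩ := S.π_surj w
    have hvP : v ∈ (P : Subgroup G) := pCore_le_sylow P hv
    rw [pow_add, End.mul_apply, ← geom_sum_eq_sub_one_pow (ZMod p) p, ← S.π_mul_pow a hv,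
      sub_one_pow_char_pow (ZMod p) p, ← map_pow, S.sub_one_π _ (SecRep.mul_pow_mul_inv_mem a hv _),
      commutatorElement_eq_one_iff_commute.2 ((hc a ha _ (mul_mem hvP ha)).mul_right
        (Commute.refl _).inv_right), S.π_one, LinearMap.zero_apply]
  by_contra hne
  have h3 : 3 ≤ p := by
    have := hp.out.two_le
    omega
  have hk := pow_pos hp.out.pos k
  have h4 : 3 * p ^ k ≤ p ^ (k + 1) := by
    rw [pow_succ']
    exact Nat.mul_le_mul_right _ h3
  rcases thmB_of_not_le_centralizer p (S.lift _ hker.ge) (coprime_card_pPrimeCore p _)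
    (fun g _ hg => S.lift_injective _ hker (hg.trans (map_one _).symm))
    (le_normalizer_of_normal (K := ⊤) trivial) h1
    (not_le_centralizer_pPrimeCore (hG.quotient _) (pCore_quotient_pCore p G)
      (fun h3 => hne ((QuotientGroup.eq_one_iff _).1 h3)) (j := 1)
      (by rw [pow_one, ← pow_mul, ← pow_succ, h1])) hs with h2 | h2
  · omega
  · obtain ⟨n, q, m, hn1, hn2, -, -, -, -, h5⟩ := h2
    rw [Nat.mul_sub, mul_one, ← pow_add, Nat.sub_add_cancel hn2] at h5
    have : p ^ (k + 1 - n) ≤ p ^ k := Nat.pow_le_pow_right hp.out.pos (by omega)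
    omega

open HH in
/-- **Hall–Higman**: `l_p ≤ 2 e_p` for odd `p`. -/
theorem pLengthLE_two_mul (hp2 : p ≠ 2) (e : ℕ) :
    ∀ (G : Type u) [Group G] [Finite G], IsPSolvable p G → SylowExp p e G →
      PLengthLE p (2 * e) G := by
  induction e with
  | zero => exact fun G _ _ _ h => pLengthLE_zero_iff.2 h.coprime
  | succ k ih =>
    intro G _ _ hG h
    rw [show 2 * (k + 1) = 2 * k + 1 + 1 by ring]
    have hG₀ := hG.quotient (pPrimeCore p G)
    have h₀ := h.of_surjective _ (QuotientGroup.mk'_surjective (pPrimeCore p G))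
    refine pLengthLE_succ_of_quotient ?_
    have hc₁ : ∀ P : Sylow p ((G ⧸ pPrimeCore p G) ⧸ pCore p (G ⧸ pPrimeCore p G)),
        ∀ a ∈ P.toSubgroup, ∀ b ∈ P.toSubgroup, Commute (a ^ p ^ k) (b ^ p ^ k) := by
      intro P'
      obtain ⟨P, rfl⟩ := Sylow.mapSurjective_surjective (QuotientGroup.mk'_surjective _) p P'
      rintro _ ⟨a, ha, rfl⟩ _ ⟨b, hb, rfl⟩
      rw [← commutatorElement_eq_one_iff_commute, ← map_pow, ← map_pow, ← map_commutatorElement]
      exact (QuotientGroup.eq_one_iff _).2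
        (commutator_pow_mem_pCore hp2 hG₀ (pPrimeCore_quotient_pPrimeCore p G) h₀ P ha hb)
    have hG₁ := hG₀.quotient (pCore p _)
    have h₁ := h₀.of_surjective _ (QuotientGroup.mk'_surjective (pCore p _))
    generalize_proofs at hc₁ hG₁ h₁ ⊢
    set G₁ := (G ⧸ pPrimeCore p G) ⧸ pCore p (G ⧸ pPrimeCore p G)
    refine pLengthLE_succ_of_quotient (ih _ ((hG₁.quotient _).quotient _) fun P' => ?_)
    obtain ⟨P₂, rfl⟩ := Sylow.mapSurjective_surjective (QuotientGroup.mk'_surjective _) p P'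
    rintro _ ⟨a, ha, rfl⟩
    rw [← map_pow]
    refine (QuotientGroup.eq_one_iff _).2 (pow_mem_pCore hp2 (hG₁.quotient _)
      (pPrimeCore_quotient_pPrimeCore p G₁)
      (h₁.of_surjective _ (QuotientGroup.mk'_surjective _)) P₂ ?_ ha)
    obtain ⟨P₁, rfl⟩ := Sylow.mapSurjective_surjective (QuotientGroup.mk'_surjective _) p P₂
    rintro _ ⟨a, ha, rfl⟩ _ ⟨b, hb, rfl⟩
    rw [← map_pow, ← map_pow]
    exact (hc₁ P₁ a ha b hb).map _

end Cfsg.Lib.Trans.Powell
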