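import Cfsg.Agent.Trans.PushCN

/-! A common normal subgroup of the Baumann subgroup. -/

set_option autoImplicit false

open scoped commutatorElement MatrixGroups

namespace Cfsg.Lib.Trans.BB

open Cfsg Subgroup Cfsg.Lib.Solv Cfsg.Lib.Trans Cfsg.Lib.Trans.TJ Cfsg.Lib.Trans.MP
  Cfsg.Lib.Trans.PU Cfsg.Lib.Local.MSS Cfsg.Lib.Chev.Core

local notation "𝐂" A:max => Subgroup.centralizer (SetLike.coe A)
local notation "𝐍" A:max => Subgroup.normalizer (SetLike.coe A)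

variable {G : Type*} [Group G]

local notation "𝐖" P:max => (⁅vv 2 P, P⁆ : Subgroup G)
local notation "𝐁" T:max => baumannSubgroupOf 2 T

variable [Finite G] {T M M₀ H L R : Subgroup G}

theorem exists_rk' (hR : IsSylowIn 2 R L) (hc : Local.CharP 2 L) (hZ : L ⊓ 𝐂 (omZ 2 R) ≤ M)
    (hM : ∀ C ≤ 𝐁 R, C ≠ ⊥ → 𝐍 (𝐁 R) ≤ 𝐍 C → L ⊓ 𝐍 C ≤ M) (h : ¬ L ≤ M) :
    ∃ E ≤ L, ¬ E ≤ M ∧ RK (𝐁 R) E ∧ 𝐖 E ≤ vv 2 L ∧ pCoreOf 2 L ≤ 𝐍 E := by
  have hf := L.subtype_injective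
  have e := map_subgroupOf_eq_of_le hR.le
  have e1 := (map_bau (n := 2) hf (R.subgroupOf L)).trans (congrArg _ e)
  have e2 : (⊤ : Subgroup L).map L.subtype = L := by rw [← MonoidHom.range_eq_map, range_subtype]
  have hc' : Local.CharP 2 (⊤ : Subgroup L) := (Local.charP_map_iff _ hf).1 (by rwa [e2])
  obtain ⟨E, A, r, -, hE⟩ := exists_rd (M := M.subgroupOf L) (H := ⊤) hR.subgroupOf_top hc'
    (sup_le (fun x hx => hZ ⟨x.2, by
        have := red_cent_map (f := L.subtype) hx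
        rwa [map_omegaOneCenter _ hf, e] at this⟩) (iSup_le fun C x hx => by
      have c1 := map_mono (f := L.subtype) C.2.1
      have c2 := red_char_map hf C.2.2.2
      rw [e1] at c1 c2
      exact hM _ c1 (fun e => C.2.2.1 ((map_eq_bot_iff_of_injective _ hf).1 e))
        (norm_le_of_char c1 c2) ⟨x.2, red_norm_map hx⟩)) le_top le_top
    fun c => h fun x hx => c (x := ⟨x, hx⟩) trivial
  refine ⟨_, map_subtype_le E, fun c => hE (map_le_iff_le_comap.1 c), e1 ▸ r.rk.map hf, ?_, ?_⟩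
  · rw [← vv_map E hf, ← map_commutator]
    exact (map_mono (r.toBlk.W_le_V r.toBK.wc hc')).trans (by rw [vv_map _ hf, e2])
  · have := map_mono (f := L.subtype) (r.toBlk.O_norm r.toBK.wc)
    rw [Local.map_pCoreOf_of_injective _ hf, e2] at this
    exact this.trans (le_normalizer_map _)

theorem common_normal_bau (hT : IsSylowIn 2 T ⊤)
    (hc : ∀ X, T ≤ X → pCoreOf 2 X ≠ ⊥ → Local.CharP 2 X) (h1 : T ≤ M₀) (hH : pCoreOf 2 H ≠ ⊥)
    (hU : UniqMax T M H) (hZ : ¬ H ≤ 𝐂 (omZ 2 T)) (nS : M₀ ≤ 𝐍 (𝐁 T)) :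
    ∃ R₀, R₀ ≠ ⊥ ∧ R₀ ≤ 𝐁 T ∧ M₀ ⊔ H ≤ 𝐍 R₀ := by
  by_contra! hn
  obtain ⟨E, e1, e2, h, e3, e4⟩ := exists_rk' (M := M) (hT.mono hU.le_top le_top)
    (hc H hU.le_top hH) ((hU.le_or_le (le_centralizer_omZ T)).resolve_left hZ)
    (fun C c1 c2 c3 => (hU.le_or_le ((h1.trans nS).trans c3)).resolve_left
      fun c => hn C c2 c1 (sup_le (nS.trans c3) c)) hU.not_le
  have k {P : Subgroup G} (c1 : T ≤ 𝐍 P) (c2 : E ≤ 𝐍 P) : H ≤ 𝐍 P :=
    (hU.le_or_le c1).resolve_right fun c => e2 ((le_inf e1 c2).trans c)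
  have c := @h.conj_comm _ _ _ _ _ _ M₀ hT (bau_le T) h1 nS (fun t ht =>
    ((cj_mono t e3).trans (cj_eq_of_mem_normalizer (norm_V H (le_normalizer (hU.le_top ht)))).le).trans
      ((ea_le_centralizer (vv_ea H)).trans (TJ.centralizer_anti e3))) (fun P p1 p2 p3 =>
    h.cent_of_norm (hT.isPGroup.to_le p1) p3 ((Local.le_pCoreOf (p1.trans hU.le_top) (k p2 p3)
      (hT.isPGroup.to_le p1)).trans e4)) hc
  set U := ncl (𝐖 E) M₀
  have u1 : U ≤ 𝐁 T ⊓ 𝐂 (𝐖 E) := le_inf (ncl_le h.le nS) (iSup_le fun m => c m.2)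
  refine hn U (fun e => h.toBlk.W_not (((le_ncl _ _).trans e.le).trans bot_le))
    (u1.trans inf_le_left) (sup_le (le_normalizer_ncl _ _)
      (k (h1.trans (le_normalizer_ncl _ _)) (Local.le_normalizer_of_commutator_le ?_)))
  exact ((commutator_mono u1 le_rfl).trans h.cE).trans (le_ncl _ _)

end Cfsg.Lib.Trans.BB
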