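import Cfsg.Agent.Trans.PushCN2
import Cfsg.Agent.Local.FrakL

/-! The qrc-lemma: cubic action in the tall case. -/

set_option autoImplicit false

open scoped commutatorElement

namespace Cfsg.Lib.Trans.BB

open Cfsg Subgroup Cfsg.Lib.Solv Cfsg.Lib.Trans Cfsg.Lib.Trans.TJ Cfsg.Lib.Trans.MP
  Cfsg.Lib.Trans.PU Cfsg.Lib.Local.MSS

local notation "𝐂" A:max => Subgroup.centralizer (SetLike.coe A)
local notation "𝐍" A:max => Subgroup.normalizer (SetLike.coe A)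

variable {G : Type*} [Group G] {c : Prop} {V X Y N T R B M₀ H : Subgroup G}

local notation "𝐐" P:max => pCoreOf 2 P

/-- a cubic (quadratic, if `c`) `2F`-offender on `V` inside `X`. -/
def KP (c : Prop) (V X : Subgroup G) : Prop :=
  ∃ B ≤ X, IsPGroup 2 B ∧ ¬ B ≤ 𝐂 V ∧ (∀ b ∈ B, b ^ 2 ∈ 𝐂 V) ∧ ⁅B, B⁆ ≤ 𝐂 V ∧
    ⁅⁅V, B⁆, B⁆ ≤ 𝐂 B ∧ (c → ⁅V, B⁆ ≤ 𝐂 B) ∧ (𝐂 B).relIndex V ≤ (𝐂 V).relIndex B ^ 2

theorem KP.map {G' : Type*} [Group G'] (h : KP c V X) {f : G →* G'} (hf : Function.Injective f) :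
    KP c (V.map f) (X.map f) := by
  obtain ⟨B, h1, h2, h3, h4, h5, h6, h7, h8⟩ := h
  have k {A D : Subgroup G} (e : A ≤ 𝐂 D) : A.map f ≤ 𝐂 (D.map f) := by
    rintro _ ⟨x, hx, rfl⟩; exact red_cent_map (e hx)
  refine ⟨_, map_mono h1, h2.map f, fun e => h3 fun b hb => (mem_cent_map_iff hf).1
    (e (mem_map_of_mem f hb)), ?_, map_commutator B B f ▸ k h5, ?_,
    fun e => map_commutator V B f ▸ k (h7 e), by rwa [relIndex_cent_map hf, relIndex_cent_map hf]⟩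
  · rintro _ ⟨x, hx, rfl⟩; exact map_pow f x 2 ▸ red_cent_map (h4 x hx)
  · rw [← map_commutator, ← map_commutator]; exact k h6

variable [Finite G]

theorem KP.of_le (h : KP c Y X) (h0 : V ≤ Y) (e : X ⊓ 𝐂 V ≤ 𝐂 Y) : KP c V X := by
  obtain ⟨B, h1, h2, h3, h4, h5, h6, h7, h8⟩ := h
  have k := TJ.centralizer_anti h0
  refine ⟨B, h1, h2, fun d => h3 ((le_inf h1 d).trans e), fun b hb => k (h4 b hb), h5.trans k,
    (commutator_mono (commutator_mono h0 le_rfl) le_rfl).trans h6,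
    fun d => (commutator_mono h0 le_rfl).trans (h7 d),
    ((relIndex_le_of_le_right h0 index_ne_zero_of_finite).trans h8).trans ?_⟩
  rw [← inf_relIndex_left B (𝐂 V)]
  exact Nat.pow_le_pow_left (relIndex_le_of_le_left ((inf_le_inf_right _ h1).trans e)
    index_ne_zero_of_finite) 2

theorem KP.sylow (h : KP c V N) (hT : IsSylowIn 2 T N) (hN : N ≤ 𝐍 V) : KP c V T := by
  obtain ⟨B, h1, h2⟩ := h
  obtain ⟨n, hn, e⟩ := hT.exists_cj_le h2.1 h1
  obtain ⟨B', h3, h4⟩ := KP.map (X := B) ⟨B, le_rfl, h2⟩ (f := (MulAut.conj n).toMonoidHom)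
    (MulAut.conj n).injective
  exact cj_eq_of_mem_normalizer (hN hn) ▸ ⟨B', h3.trans e, h4⟩

omit [Finite G] in
theorem kp_of_quad (hV : IsElementaryAbelian 2 V) (h1 : B ≤ X) (h2 : IsPGroup 2 B) (h3 : ¬ B ≤ 𝐂 V)
    (h4 : B ≤ 𝐍 V) (h5 : ⁅V, B⁆ ≤ 𝐂 B) (h6 : (𝐂 B).relIndex V ≤ (𝐂 V).relIndex B ^ 2) :
    KP c V X := by
  refine ⟨B, h1, h2, h3, fun b hb v hv => ?_, three_cent (by rwa [commutator_comm]) h5,
    by rw [cent_iff.1 h5]; exact bot_le, fun _ => h5, h6⟩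
  have e1 := h5 (comm_mem_comm hb hv) b hb
  have e2 := ea_pow hV (comm_mem_of_norm (h4 hb) hv)
  calc v * b ^ 2 = ⁅b, v⁆ ^ 2 * v * b ^ 2 := by rw [e2, one_mul]
    _ = ⁅b, v⁆ * b * v * b := by simp only [commutatorElement_def, sq]; group
    _ = b ^ 2 * v := by rw [← e1]; simp only [commutatorElement_def, sq]; group

theorem kp_sym (hY : IsElementaryAbelian 2 Y) (hN : N ≤ 𝐍 Y) {g : G} (h1 : cj g Y ≤ N)
    (h2 : cj g⁻¹ Y ≤ N) (h3 : ¬ cj g Y ≤ 𝐂 Y) : KP c Y N := by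
  have k {g : G} (h1 : cj g Y ≤ N) (h2 : cj g⁻¹ Y ≤ N) (h3 : ¬ cj g Y ≤ 𝐂 Y)
      (h4 : (𝐂 (cj g Y)).relIndex Y ≤ (𝐂 Y).relIndex (cj g Y)) : KP c Y N :=
    kp_of_quad hY h1 (ea_isPGroup (ea_map hY _)) h3 (h1.trans hN)
      ((commutator_le_right_of_le_normalizer (by
        rw [← cj_normalizer, ← cj_inv_le_iff_le_cj]; exact h2.trans hN)).trans
        (ea_le_centralizer (ea_map hY _))) (h4.trans (Nat.le_self_pow two_ne_zero _))
  rcases le_total ((𝐂 (cj g Y)).relIndex Y) ((𝐂 Y).relIndex (cj g Y)) with e | e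
  · exact k h1 h2 h3 e
  · refine k h2 (by rwa [inv_inv]) (fun d => h3 (cent_symm ?_)) ?_
    · rwa [← cj_centralizer, ← cj_inv_le_iff_le_cj]
    · rwa [← relIndex_cj g, ← relIndex_cj g (𝐂 Y), cj_centralizer, cj_centralizer, cj_cj_inv]

theorem cubic_core (hc : Local.CharP 2 (⊤ : Subgroup G)) (hw : Local.WC 2 R)
    (ha : ∀ g, cj g (omZ 2 R) ≤ 𝐍 R → cj g⁻¹ (omZ 2 R) ≤ 𝐍 R → cj g (omZ 2 R) ≤ 𝐂 (omZ 2 R))
    (hY : ¬ omZ 2 R ≤ 𝐐 ⊤) : KP False (omZ 2 R) (𝐍 R) := by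
  have yR := omZ_le (p := 2) R
  have cR := le_centralizer_omZ (p := 2) R
  have nR := le_normalizer_omZ (p := 2) (le_refl (𝐍 R))
  have eY : IsElementaryAbelian 2 (omZ 2 R) := ea_omegaOne_center R
  generalize omZ 2 R = Y at *
  have cY := ea_le_centralizer eY
  obtain ⟨L, -, hL⟩ := exists_minimal_le_of_wellFoundedLT
    (fun X : Subgroup G => 𝐐 ⊤ ⊔ R ≤ X ∧ ¬ Y ≤ 𝐐 X) ⊤ ⟨le_top, hY⟩
  have rL := le_sup_right.trans hL.prop.1
  have yL := yR.trans rL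
  have cL := hc.of_pCoreOf_le (le_sup_left.trans hL.prop.1) le_top
  have aL := pCoreOf_le (p := 2) L
  have nA := Local.le_normalizer_pCoreOf (p := 2) L
  have aY := (hw.pCoreOf_le_normalizer rL).trans nR
  have mn {K : Subgroup G} (h1 : 𝐐 L ≤ K) (h2 : R ≤ K) (h3 : ¬ L ≤ K) : Y ≤ 𝐐 (L ⊓ K : Subgroup G) := by
    by_contra e
    exact h3 ((hL.le_of_le ⟨sup_le (le_inf (le_sup_left.trans hL.prop.1) ((Local.pCoreOf_le_of_le
      (le_sup_left.trans hL.prop.1) le_top).trans h1)) (le_inf rL h2), e⟩ inf_le_left).trans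
      inf_le_right)
  have gen {x : G} (hx : x ∈ L) (h0 : ¬ IsPGroup 2 (Y ⊔ cj x Y : Subgroup G)) {K : Subgroup G}
      (h1 : 𝐐 L ≤ K) (h2 : R ≤ K) (h3 : cj x Y ≤ K) : L ≤ K := by
    by_contra e
    exact h0 ((Local.isPGroup_sup' (isPGroup_pCoreOf _) (ea_isPGroup (ea_map eY _))
      ((le_inf (cj_le_of_mem_of_le hx yL) h3).trans (Local.le_normalizer_pCoreOf _))).to_le
      (sup_le_sup_right (mn h1 h2 e) _))
  obtain ⟨g, hg, h0⟩ : ∃ g ∈ L, ¬ IsPGroup 2 (Y ⊔ cj g Y : Subgroup G) := by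
    by_contra! e
    exact hL.prop.2 (FrakM.le_pCoreOf_of_forall_cj yL e)
  have eA {x : G} (hx : x ∈ L) := cj_eq_of_mem_normalizer (nA hx)
  have gen' {K : Subgroup G} (h1 : 𝐐 L ≤ K) (h2 : cj g R ≤ K) (h3 : Y ≤ K) : L ≤ K := by
    rw [← cj_le_cj (g := g⁻¹), cj_eq_of_mem (inv_mem hg)]
    refine gen (inv_mem hg) (fun e => h0 ?_) ((eA (inv_mem hg)).ge.trans (cj_mono _ h1))
      (cj_le_iff_le_cj_inv.1 h2) (cj_mono _ h3)
    have := isPGroup_cj e g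
    rwa [cj_sup, cj_cj_inv, sup_comm] at this
  have aX : 𝐐 L ≤ 𝐍 (cj g Y) := by rw [← cj_normalizer, ← eA hg]; exact cj_mono g aY
  have cX : cj g R ≤ 𝐂 (cj g Y) := by rw [← cj_centralizer]; exact cj_mono g cR
  have xL := cj_le_of_mem_of_le hg yL
  set Z := Y ⊓ 𝐐 L ⊓ 𝐂 (cj g Y) with hZ
  have zY : Z ≤ Y := inf_le_left.trans inf_le_left
  have nZ : L ≤ 𝐍 Z := gen hg h0 (norm_inf (norm_inf aY le_normalizer) (norm_cent aX))
    ((cR.trans (TJ.centralizer_anti zY)).trans (cent_le_norm _))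
    ((cent_symm inf_le_right).trans (cent_le_norm _))
  set B := cj g Y ⊓ 𝐐 L with hB
  have eB : B = cj g (Y ⊓ 𝐐 L) := by rw [cj_inf, eA hg]
  have zB : Z ≤ B := by
    rw [eB, ← cj_eq_of_mem_normalizer (nZ hg)]; exact cj_mono g inf_le_left
  have aB : 𝐐 L ≤ 𝐍 B := norm_inf aX le_normalizer
  have c1 : ⁅𝐐 L, Y⁆ ≤ Y ⊓ 𝐐 L :=
    (Local.commutator_le_inf_of_le_normalizer aY (yL.trans nA)).trans (inf_comm _ _).le
  have c2 : ⁅𝐐 L, cj g Y⁆ ≤ B :=
    (Local.commutator_le_inf_of_le_normalizer aX (xL.trans nA)).trans (inf_comm _ _).le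
  have cX' : cj g Y ≤ 𝐂 (cj g Y) := ea_le_centralizer (ea_map eY _)
  have bC : B ≤ 𝐂 (cj g Y) := inf_le_left.trans cX'
  have bL : B ≤ L := inf_le_right.trans aL
  have c3 : ⁅B, Y⁆ ≤ Y ⊓ 𝐐 L := (commutator_mono inf_le_right le_rfl).trans c1
  have c4 : ⁅Y ⊓ 𝐐 L, B⁆ ≤ B := (commutator_mono inf_le_right inf_le_left).trans c2
  have tr {D E : Subgroup G} (e : D ≤ 𝐂 E) (h : D ≤ L) : D ≤ commLe E Z :=
    le_commLe_iff.2 ⟨h.trans nZ, (cent_iff.1 e).le.trans bot_le⟩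
  have i1 {b : G} (hb : b ∈ B) (h : ∀ y ∈ Y, ⁅b, y⁆ ∈ Z) : b ∈ Z := by
    have := gen' (K := 𝐍 (B ⊓ commLe Y Z : Subgroup G))
      (norm_inf aB (FrakM.le_normalizer_commLe aY (aL.trans nZ)))
      ((cX.trans (TJ.centralizer_anti (inf_le_left.trans inf_le_left))).trans (cent_le_norm _))
      (Local.le_normalizer_of_commutator_le ((le_commLe_iff.1 inf_le_right).2.trans
        (le_inf zB (tr (zY.trans cY) (zY.trans yL)))))
    have e := mem_normalizer_conj (this hg) (x := b) ⟨hb, nZ (bL hb), h⟩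
    exact ⟨⟨conj_mem_cj.1 e.1.1, hb.2⟩, bC hb⟩
  have i2 : Y ⊓ commLe B Z ≤ 𝐐 L := by
    set Y₁ := Y ⊓ commLe B Z
    have y1 : Y₁ ≤ L := inf_le_left.trans yL
    have d1 : B ≤ 𝐐 L ⊓ commLe Y₁ Z := le_inf inf_le_right (le_commLe_iff.2 ⟨bL.trans nZ, by
      rw [commutator_comm]; exact (le_commLe_iff.1 inf_le_right).2⟩)
    have d2 : L ≤ 𝐍 (𝐐 L ⊓ commLe Y₁ Z : Subgroup G) := gen hg h0 (norm_inf le_normalizer
      (FrakM.le_normalizer_commLe (norm_inf aY (FrakM.le_normalizer_commLe aB (aL.trans nZ)))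
        (aL.trans nZ))) (norm_inf (rL.trans nA) (FrakM.le_normalizer_commLe
      ((cR.trans (TJ.centralizer_anti inf_le_left)).trans (cent_le_norm _)) (rL.trans nZ)))
      (Local.le_normalizer_of_commutator_le_of_le (c2.trans d1) inf_le_left)
    have hW := ncl_le_of_le y1
    refine (le_ncl Y₁ L).trans (le_pCoreOf hW (le_normalizer_ncl _ _)
      (cL.isPGroup_of_resOf_le hW ?_))
    have d3 : ⁅𝐐 L, Y₁⁆ ≤ 𝐐 L ⊓ commLe Y₁ Z := ((commutator_mono le_rfl inf_le_left).trans c1).trans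
      (le_inf inf_le_right (tr (inf_le_left.trans (cY.trans (TJ.centralizer_anti inf_le_left)))
        (inf_le_left.trans yL)))
    have d4 : ncl Y₁ L ≤ 𝐂 Z := cent_symm (le_centralizer_ncl nZ
      (zY.trans (cY.trans (TJ.centralizer_anti inf_le_left))))
    refine resOf_le_centralizer_of_commutator_le ((isPGroup_pCoreOf L).to_le inf_le_left)
      ((commutator_mono le_rfl (resOf_le _)).trans (commutator_ncl_le nA d2 y1 d3)) ?_
    exact resOf_le_centralizer_of_commutator_le ((ea_isPGroup eY).to_le zY)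
      ((commutator_mono le_rfl (resOf_le _)).trans (commutator_ncl_le d2 nZ y1
        (le_commLe_iff.1 inf_le_right).2)) ((resOf_le _).trans d4)
  obtain ⟨b, hb, hbZ, -, -, hbA⟩ := PG.exists_step_elt (isPGroup_pCoreOf (p := 2) L)
    ((isPGroup_pCoreOf L).to_le (inf_le_right : B ≤ _)) (aL.trans nZ) aB (lt_of_le_of_ne zB fun e =>
      hL.prop.2 (le_trans (le_inf le_rfl (tr (cY.trans (TJ.centralizer_anti (e.ge.trans zY))) yL)) i2))
  have i3 {y : G} (hy : y ∈ Y) (h : ⁅b, y⁆ ∈ Z) : y ∈ 𝐐 L := by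
    set K := cj g⁻¹ (commLe (zpowers b) Z)
    have k {x : G} (hx : x ∈ L) (h : ⁅b, x⁆ ∈ Z) : x ∈ commLe (zpowers b) Z := by
      refine le_commLe_iff.2 ⟨zpowers_le.2 (nZ hx), ?_⟩ (mem_zpowers x)
      exact commutator_zpowers_zpowers_le (nZ hx) (nZ (bL hb)) (comm_mem_swap h)
    have k1 : Y ≤ 𝐐 (L ⊓ K : Subgroup G) := mn
      ((eA (inv_mem hg)).ge.trans (cj_mono _ fun a ha => k (aL ha) (hbA a (mem_sup_left ha))))
      (cj_le_iff_le_cj_inv.1 (tr (cX.trans (TJ.centralizer_anti (zpowers_le.2 hb.1)))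
        (cj_le_of_mem_of_le hg rL))) fun e => hbZ (i1 hb fun y hy => comm_mem_swap
          ((cj_le_iff_le_cj_inv.2 e ((cj_eq_of_mem hg).ge (yL hy))).2 b (mem_zpowers b)))
    have k2 : 𝐐 (L ⊓ K : Subgroup G) ≤ 𝐍 R := hw.pCoreOf_le_normalizer (le_inf rL
      (cj_le_iff_le_cj_inv.1 (tr (cX.trans (TJ.centralizer_anti (zpowers_le.2 hb.1)))
        (cj_le_of_mem_of_le hg rL))))
    have k3 : g⁻¹ * y * g ∈ L ⊓ K := ⟨mem_normalizer_conj' (le_normalizer hg) (yL hy),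
      mem_cj_inv.2 (by simpa [mul_assoc] using k (yL hy) h)⟩
    have k4 {x : G} (hx : x ∈ L ⊓ K) : cj x Y ≤ 𝐍 R := ((cj_mono x k1).trans
      (cj_eq_of_mem_normalizer (Local.le_normalizer_pCoreOf _ hx)).le).trans k2
    have k5 := cj_mono g (ha _ (k4 k3) (k4 ((L ⊓ K).inv_mem k3)))
    rw [cj_centralizer, cj_cj, show g * (g⁻¹ * y * g) = y * g by group, cj_mul] at k5
    refine i2 ⟨hy, nZ (yL hy), fun d hd => ⟨comm_mem_swap (c3 (commutator_mem_commutator hd hy)), ?_⟩⟩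
    exact (𝐂 (cj g Y)).mul_mem (k5 (conj_mem_cj.2 hd.1)) ((𝐂 (cj g Y)).inv_mem (bC hd))
  have i4 : (𝐐 L).relIndex Y ≤ Z.relIndex (Y ⊓ 𝐐 L) := relIndex_le_of_map
    (fun y => ⟨_, c3 (commutator_mem_commutator hb y.2)⟩) fun u v e => i3 (Y.mul_mem (Y.inv_mem u.2) v.2) (by
      have e1 := cY (c3 (commutator_mem_commutator hb u.2)).1 _ u.2
      have e2 := cY (c3 (commutator_mem_commutator hb v.2)).1 _ u.2
      convert e using 1
      calc _ = (u : G)⁻¹ * ⁅b, (u : G)⁆⁻¹ * (⁅b, (v : G)⁆ * u) := by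
            simp only [commutatorElement_def]; group
        _ = _ := by rw [← e2, ← mul_inv_rev, ← e1]; group)
  have i5 : Z.relIndex (Y ⊓ 𝐐 L) = (𝐂 Y).relIndex B := by
    rw [← relIndex_cj g, cj_eq_of_mem_normalizer (nZ hg), ← eB, ← inf_relIndex_left B (𝐂 Y)]
    congr 1
    exact le_antisymm (le_inf zB (zY.trans cY)) fun x hx => i1 hx.1 fun y hy => by
      rw [comm_eq_one_of_mem' hy hx.2]; exact one_mem _
  refine ⟨B, inf_le_right.trans (hw.pCoreOf_le_normalizer rL), (isPGroup_pCoreOf L).to_le inf_le_right,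
    fun e => hbZ (i1 hb fun y hy => by rw [comm_eq_one_of_mem' hy (e hb)]; exact one_mem _),
    fun x hx => by rw [ea_pow (ea_map eY _) hx.1]; exact one_mem _,
    (cent_iff.1 (bC.trans (TJ.centralizer_anti inf_le_left))).le.trans bot_le,
    ((commutator_mono (by rwa [commutator_comm]) le_rfl).trans c4).trans
      (bC.trans (TJ.centralizer_anti inf_le_left)), False.elim, ?_⟩
  refine (relIndex_le_of_le_left (inf_le_right.trans (TJ.centralizer_anti inf_le_left))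
    index_ne_zero_of_finite : _ ≤ Z.relIndex Y).trans ?_
  rw [← relIndex_mul_relIndex Z (Y ⊓ 𝐐 L) Y inf_le_left inf_le_left, ← i5, sq]
  exact Nat.mul_le_mul_left _ ((inf_relIndex_left _ _).le.trans i4)

theorem wc_of_not_kp (hT : IsSylowIn 2 T H) (h1 : R ≤ T) (h2 : T ≤ 𝐍 R) (h3 : M₀ ≤ 𝐍 R)
    (h0 : R ≠ ⊥) (hR : T ⊓ 𝐂 (omZ 2 R) ≤ R) (hq : ¬ KP c (omZ 2 R) T)
    (hn : ∀ W, W ≠ ⊥ → W ≤ R → M₀ ≤ 𝐍 W → ∀ x ∈ H, x ∈ 𝐍 W → cj x R ≤ 𝐍 R → cj x R = R) :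
    Local.WC 2 (R.subgroupOf H) := by
  have hp := hT.isPGroup.to_le h1
  have rH := h1.trans hT.le
  have nR := le_normalizer_omZ (p := 2) (inf_le_right : H ⊓ 𝐍 R ≤ _)
  have hS := hT.mono (le_inf hT.le h2) inf_le_left
  set Y := omZ 2 R
  have eY : IsElementaryAbelian 2 Y := ea_omegaOne_center R
  let X : Set G := {x | cj x R ≤ H ⊓ 𝐍 R ∧ cj x⁻¹ R ≤ H ⊓ 𝐍 R}
  have key : ∀ n : ℕ, ∀ l : List G, l.length = n → (∀ x ∈ l, x ∈ X) → cj l.prod Y ≤ R := by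
    intro n
    induction n with
    | zero =>
      intro l hl _
      rw [List.length_eq_zero_iff.1 hl, List.prod_nil, cj_one]
      exact omZ_le R
    | succ n ih =>
      have A : ∀ l : List G, l.length = n + 1 → (∀ x ∈ l, x ∈ X) → cj l.prod Y ≤ H ⊓ 𝐍 R := by
        intro l hl hX
        obtain ⟨x, l', rfl⟩ := List.exists_cons_of_length_eq_add_one hl
        rw [List.prod_cons, cj_mul]
        exact (cj_mono x (ih l' (by simpa using hl) fun y hy => hX y (List.mem_cons_of_mem _ hy))).trans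
          (hX x List.mem_cons_self).1
      intro l hl hX
      have a1 := A l hl hX
      have a2 := A (l.map fun x => x⁻¹).reverse (by simpa using hl) (by
        intro y hy
        rw [List.mem_reverse, List.mem_map] at hy
        obtain ⟨z, hz, rfl⟩ := hy
        exact ⟨(hX z hz).2, by rw [inv_inv]; exact (hX z hz).1⟩)
      rw [← List.prod_inv_reverse] at a2
      have a3 : cj l.prod Y ≤ 𝐂 Y := by
        by_contra e
        exact hq ((kp_sym eY nR a1 a2 e).sylow hS nR)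
      obtain ⟨m, hm, e⟩ := hS.exists_cj_le (ea_isPGroup (ea_map eY _)) a1
      rw [← cj_le_cj (g := m), cj_eq_of_mem_normalizer hm.2]
      exact (le_inf e ((cj_mono m a3).trans
        (cj_eq_of_mem_normalizer (norm_cent nR hm)).le)).trans hR
  let W : Subgroup G := ⨆ x : Submonoid.closure X, cj (x : G) Y
  have hXW : ∀ x ∈ X, x ∈ 𝐍 W := fun x hx => by
    refine mem_normalizer_of_cj_le ?_
    rw [cj_iSup]
    refine iSup_le fun y => ?_
    rw [cj_cj]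
    exact le_iSup (fun x : Submonoid.closure X => cj (x : G) Y)
      ⟨x * y, mul_mem (Submonoid.subset_closure hx) y.2⟩
  have hW := hn W (fun e => omZ_ne_bot hp h0 (by
      have := le_iSup (fun x : Submonoid.closure X => cj (x : G) Y) 1
      rw [OneMemClass.coe_one, cj_one] at this
      exact le_bot_iff.1 (this.trans e.le))) (iSup_le fun x => by
      obtain ⟨l, hl, hx⟩ := Submonoid.exists_list_of_mem_closure x.2
      exact hx ▸ key _ l rfl hl) fun m hm => hXW m ⟨by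
      rw [cj_eq_of_mem_normalizer (h3 hm)]; exact le_inf rH le_normalizer, by
      rw [cj_eq_of_mem_normalizer (h3 (inv_mem hm))]; exact le_inf rH le_normalizer⟩
  refine Local.wc_of_forall_normalizer (isPGroup_subgroupOf hp H) fun g a1 a2 => ?_
  have k {g : H} (a : cj g (R.subgroupOf H) ≤ 𝐍 (R.subgroupOf H)) : cj (g : G) R ≤ H ⊓ 𝐍 R := by
    have := (map_mono (f := H.subtype) a).trans (le_normalizer_map _)
    rw [map_cj, map_subgroupOf_eq_of_le rH] at this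
    exact le_inf (cj_le_of_mem_of_le g.2 rH) this
  rw [← cj_normalizer, ← cj_inv_le_iff_le_cj] at a2
  rw [← subgroupOf_cj, hW g g.2 (hXW g ⟨k a1, k a2⟩) ((k a1).trans inf_le_right)]

theorem kp_tall (hT : IsSylowIn 2 T H) (hc : Local.CharP 2 H) (h1 : R ≤ T) (h2 : T ≤ 𝐍 R)
    (h3 : M₀ ≤ 𝐍 R) (hR : T ⊓ 𝐂 (omZ 2 R) ≤ R) (hY : ¬ omZ 2 R ≤ 𝐐 H)
    (hn : ∀ W, W ≠ ⊥ → W ≤ R → M₀ ≤ 𝐍 W → ∀ x ∈ H, x ∈ 𝐍 W → cj x R ≤ 𝐍 R → cj x R = R) :
    KP False (omZ 2 R) T := by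
  by_contra hq
  have hf := H.subtype_injective
  have rH := h1.trans hT.le
  have nR := le_normalizer_omZ (p := 2) (inf_le_right : H ⊓ 𝐍 R ≤ _)
  have hS := hT.mono (le_inf hT.le h2) inf_le_left
  have e := map_subgroupOf_eq_of_le rH
  have e1 : (omZ 2 (R.subgroupOf H)).map H.subtype = omZ 2 R :=
    (map_omegaOneCenter _ hf).trans (congrArg _ e)
  have e2 : (⊤ : Subgroup H).map H.subtype = H := by rw [← MonoidHom.range_eq_map, range_subtype]
  have e3 : (𝐍 (R.subgroupOf H)).map H.subtype ≤ H ⊓ 𝐍 R :=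
    le_inf (map_subtype_le _) ((le_normalizer_map _).trans (by rw [e]))
  obtain ⟨B, b1, b2⟩ := (cubic_core ((Local.charP_map_iff _ hf).1 (by rwa [e2])) (wc_of_not_kp hT h1 h2 h3
    (fun e => hY ((omZ_le R).trans (e.le.trans bot_le))) hR hq hn) (fun g a1 a2 => by
      by_contra a3
      refine hq ((kp_sym (Y := omZ 2 R) (g := g) (ea_omegaOne_center R) nR ?_ ?_ fun a4 => a3 fun x hx =>
        (mem_cent_map_iff hf).1 (e1 ▸ a4 ?_)).sylow hS nR)
      · exact e1 ▸ (map_cj _ g _).ge.trans ((map_mono a1).trans e3)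
      · exact e1 ▸ (map_cj _ g⁻¹ _).ge.trans ((map_mono a2).trans e3)
      · exact e1 ▸ (map_cj _ g _).le (mem_map_of_mem _ hx)) fun a => hY (by
      have := map_mono (f := H.subtype) a
      rwa [e1, Local.map_pCoreOf_of_injective _ hf, e2] at this)).map hf
  rw [e1] at b2
  exact hq (KP.sylow ⟨B, b1.trans e3, b2⟩ hS nR)

end Cfsg.Lib.Trans.BB
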