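import Cfsg.Agent.Trans.QrcA

/-! The qrc-lemma: the short case. -/

set_option autoImplicit false

open scoped commutatorElement

namespace Cfsg.Lib.Trans.BB

open Cfsg Subgroup Cfsg.Lib.Solv Cfsg.Lib.Trans Cfsg.Lib.Trans.TJ Cfsg.Lib.Trans.MP
  Cfsg.Lib.Trans.PU Cfsg.Lib.Local.MSS

local notation "𝐂" A:max => Subgroup.centralizer (SetLike.coe A)
local notation "𝐍" A:max => Subgroup.normalizer (SetLike.coe A)

variable {G : Type*} [Group G] [Finite G] {p : ℕ} [hp : Fact p.Prime]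
  {V X U N N₁ N₂ T A M P : Subgroup G}

omit [Finite G] in
theorem relIndex_le_of_fun {G' : Type*} [Group G'] [Finite G'] {A B : Subgroup G}
    {X Y : Subgroup G'} (f : A → X) (hf : ∀ a b : A, (f a : G')⁻¹ * f b ∈ Y → (a : G)⁻¹ * b ∈ B) :
    B.relIndex A ≤ Y.relIndex X := by
  refine Nat.card_le_card_of_injective
    (fun q : A ⧸ B.subgroupOf A => (QuotientGroup.mk (f q.out) : X ⧸ Y.subgroupOf X)) fun q r h => ?_
  rw [← QuotientGroup.out_eq' q, ← QuotientGroup.out_eq' r, QuotientGroup.eq]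
  exact hf _ _ (QuotientGroup.eq (s := Y.subgroupOf X).1 h)

theorem pm_noOver (h : PM p V P T M) (hA : A ≤ P) (he : IsElementaryAbelian p A) :
    (𝐂 V).relIndex A ≤ (𝐂 A).relIndex V := by
  have : Nonempty {B : Subgroup G // B ≤ A} := ⟨⟨A, le_rfl⟩⟩
  obtain ⟨⟨B, hB⟩, hm⟩ := Finite.exists_max
    fun B : {B : Subgroup G // B ≤ A} => Nat.card B.1 * Nat.card ↥(V ⊓ 𝐂 B.1)
  have e1 := card_mul_relIndex (inf_le_left : A ⊓ 𝐂 V ≤ A)
  have e2 := card_mul_relIndex (inf_le_left : V ⊓ 𝐂 A ≤ V)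
  rw [inf_relIndex_left] at e1 e2
  have k : Nat.card A * Nat.card ↥(V ⊓ 𝐂 A) ≤ Nat.card ↥(A ⊓ 𝐂 V) * Nat.card V := by
    by_cases e : B ≤ 𝐂 V
    · exact (hm ⟨A, le_rfl⟩).trans (Nat.mul_le_mul (Trans.card_le_of_le (le_inf hB e))
        (Trans.card_le_of_le inf_le_left))
    have n := hA.trans h.norm
    have := (h.str (hB.trans hA) ⟨fun D hD => hm ⟨D, hD.trans hB⟩, by
      rw [ea_commutator_self (ea_mono he hB)]; exact bot_le, fun a ha => by
      rw [ea_pow he (hB ha)]; exact one_mem _⟩ e).1.noOver _ (act_mono hA) (ea_act he)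
    rw [emb_inf_centralizer n, card_emb inf_le_left, card_emb le_rfl] at this
    rw [← card_act n, mul_comm (Nat.card (act V A)), mul_assoc]
    exact Nat.mul_le_mul_left _ this
  rw [← e1, ← e2, mul_assoc, mul_comm ((𝐂 V).relIndex A)] at k
  exact Nat.le_of_mul_le_mul_left (Nat.le_of_mul_le_mul_left k Nat.card_pos) Nat.card_pos

local notation "𝐐" => pCoreOf p (⊤ : Subgroup G)
local notation "𝐊" => Local.resOf p (⊤ : Subgroup G)

theorem sec_noOver (hT : IsSylowIn p T ⊤) (hU : UniqMax T M ⊤) (hn : ⊤ ≤ ncl T ⊤) [N₁.Normal]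
    [N₂.Normal] (h1 : N₂ ≤ N₁) (he : IsElementaryAbelian p N₁) (h2 : ¬ ⁅N₁, 𝐊⁆ ≤ N₂) (hA : A ≤ T)
    (hA' : IsElementaryAbelian p A) : (𝐐).relIndex A ≤ (commLe A N₂).relIndex N₁ := by
  obtain ⟨N₄, a1, a2⟩ := exists_minimal_le_of_wellFoundedLT
    (fun N : Subgroup G => N₂ ≤ N ∧ N.Normal ∧ ¬ ⁅N, 𝐊⁆ ≤ N₂) N₁ ⟨h1, ‹_›, h2⟩
  obtain ⟨a3, _, a4⟩ := a2.prop
  have p4 := ea_isPGroup (ea_mono he a1)
  have hQ := isPGroup_pCoreOf (p := p) (⊤ : Subgroup G)
  obtain ⟨D, d1, d2, d3, -, d4⟩ := PG.exists_invariant_step_down hQ p4 (top_le_normalizer N₂ _)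
    (top_le_normalizer N₄ _) (lt_of_le_of_ne a3 fun e => a4 ((commutator_le_left _ _).trans e.ge))
  have d5 : ⁅N₄, 𝐐⁆ ⊔ N₂ < N₄ := lt_of_le_of_lt (sup_le (PG.commutator_le_of_card_eq_prime_mul hQ p4
    d3 (top_le_normalizer N₄ _) d2.le d4).1 d1) d2
  have a5 : ¬ ⁅N₄, 𝐊⁆ ≤ ⁅N₄, 𝐐⁆ ⊔ N₂ := fun e => a4 (by
    have := Local.commutator_resOf_le_of_le p4 (top_le_normalizer N₄ _) (top_le_normalizer N₂ _) e (by
      by_contra c
      exact d5.not_ge (a2.le_of_le ⟨le_sup_right, inferInstance, c⟩ d5.le))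
    rwa [Local.resOf_resOf] at this)
  set N₃ := ⁅N₄, 𝐐⁆ ⊔ N₂
  let π := QuotientGroup.mk' N₃
  have hs := QuotientGroup.mk'_surjective N₃
  have t : (⊤ : Subgroup G).map π = ⊤ := map_top_of_surjective π hs
  have k3 : N₃ ≤ 𝐐 := Local.le_pCoreOf le_top (top_le_normalizer _ _) (p4.to_le d5.le)
  have kk : π.ker ⊓ ⊤ = N₃ := by rw [inf_top_eq, QuotientGroup.ker_mk']
  have q : (𝐐).map π = pCoreOf p ⊤ := by rw [Local.map_pCoreOf π (p4.to_le (kk.le.trans d5.le)), t]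
  have := Normal.map ‹N₄.Normal› π hs
  have hm : PM p (N₄.map π) ⊤ (T.map π) (M.map π) := ⟨ea_map (ea_mono he a1) π,
    top_le_normalizer _ _, t ▸ hT.map π,
    t ▸ hU.map π (kk.le.trans (k3.trans ((Local.pCoreOf_le_sylowIn hT).trans hU.le))),
    by have := map_mono (f := π) hn; rwa [map_ncl, t] at this,
    q ▸ cent_symm (commutator_le_iff_map_le_centralizer.1 le_sup_left), fun e => a5
      (commutator_le_iff_map_le_centralizer.2 (cent_symm (by rwa [Local.map_resOf, t])))⟩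
  choose f f1 f2 using fun w : N₄.map π => w.2
  refine (relIndex_le_of_fun (fun a : A => (⟨π a, mem_map_of_mem π a.2⟩ : A.map π)) fun a b e => ?_).trans
    ((pm_noOver hm le_top (ea_map hA' π)).trans
      (relIndex_le_of_fun (fun w => (⟨f w, a1 (f1 w)⟩ : N₁)) fun u v e => ?_))
  · obtain ⟨y, hy, ey⟩ := (hm.cent_le.2.trans q.symm).le ⟨by
      simpa using mem_map_of_mem π (hA (mul_mem (inv_mem a.2) b.2)), e⟩
    have := QuotientGroup.eq.1 (show ((y : G) : G ⧸ N₃) = ((a : G)⁻¹ * b : G) from ey)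
    simpa using mul_mem hy (k3 this)
  · rw [← f2 u, ← f2 v, ← map_inv, ← map_mul]
    rintro _ ⟨a, ha, rfl⟩
    refine (commutatorElement_eq_one_iff_mul_comm.1 ?_).symm
    rw [← map_commutatorElement]
    exact (QuotientGroup.eq_one_iff _).2 (mem_sup_right (e.2 a ha))

theorem two_sec (hT : IsSylowIn p T ⊤) (hU : UniqMax T M ⊤) (hn : ⊤ ≤ ncl T ⊤) [U.Normal]
    [N.Normal] (h1 : N ≤ U) (he : IsElementaryAbelian p U) (h2 : ¬ ⁅U, 𝐊⁆ ≤ N) (h3 : ¬ N ≤ 𝐂 (𝐊))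
    (hA : A ≤ T) (hA' : IsElementaryAbelian p A) : (𝐐).relIndex A ^ 2 ≤ (𝐂 A).relIndex U := by
  have k {N : Subgroup G} [N.Normal] : 𝐂 A ≤ commLe A N :=
    le_commLe_iff.2 ⟨top_le_normalizer _ _, (cent_iff.1 le_rfl).le.trans bot_le⟩
  have := relIndex_inf_mul_relIndex (𝐂 A) (commLe A N) U
  rw [inf_eq_left.2 k] at this
  rw [← this, sq]
  refine Nat.mul_le_mul (((sec_noOver hT hU hn bot_le (ea_mono he h1)
    (fun e => h3 (cent_iff.2 (le_bot_iff.1 e))) hA hA').trans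
    (relIndex_le_of_le_left k index_ne_zero_of_finite)).trans (relIndex_le_of_le_right (le_inf
      (le_commLe_iff.2 ⟨le_normalizer, commutator_le_left _ _⟩) h1) index_ne_zero_of_finite))
    (sec_noOver hT hU hn h1 he h2 hA hA')

theorem dual_le {U₀ U₁ : Subgroup G} (hX : IsPGroup p X) (h1 : ⁅V, X⁆ ≤ U₁) (h2 : U₁ ≤ 𝐂 V)
    (h3 : U₀ ≤ U₁) (h4 : X ≤ 𝐍 U₀) (h5 : U₀.relIndex U₁ ≤ p) :
    (commLe X U₀).relIndex V ≤ (𝐂 V).relIndex X := by
  induction X using WellFoundedLT.induction with | ind X ih =>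
  have n : V ≤ 𝐍 U₀ := (cent_symm (h3.trans h2)).trans (cent_le_norm _)
  by_cases e : X ≤ 𝐂 V
  · rw [relIndex_eq_one.2 (le_commLe_iff.2 ⟨n, (cent_iff.1 (cent_symm e)).le.trans bot_le⟩)]
    exact Nat.pos_of_ne_zero index_ne_zero_of_finite
  obtain ⟨D, d1, d2, -, d3⟩ := PG.exists_le_card_eq_prime_mul hX
    (lt_of_le_of_ne (inf_le_left : X ⊓ 𝐂 V ≤ X) fun c => e (c.ge.trans inf_le_right))
  obtain ⟨x, hx, hx'⟩ := SetLike.exists_of_lt d2
  have e1 := relIndex_mul_relIndex _ _ _ d1 d2.le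
  rw [inf_relIndex_left, PG.relIndex_eq_of_card_eq_mul d2.le d3] at e1
  refine le_trans (relIndex_le_of_le_left (H := commLe D U₀ ⊓ commLe (zpowers x) U₀)
    (le_commLe_iff.2 ⟨fun g hg => hg.1.1, ?_⟩) index_ne_zero_of_finite) (relIndex_inf_le.trans
      ((Nat.mul_le_mul ((ih D d2 (hX.to_le d2.le) ((commutator_mono le_rfl d2.le).trans h1)
        (d2.le.trans h4)).trans (relIndex_le_of_le_left inf_le_right index_ne_zero_of_finite))
      ((relIndex_le_of_map (fun v : V => (⟨_, h1 (comm_mem_comm hx v.2)⟩ : U₁))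
        fun u v c => ?_).trans h5)).trans e1.le))
  · rw [← PG.sup_zpowers_eq_of_card_eq_prime_mul hp.out d2.le d3 hx hx']
    exact commutator_sup_right_le_of_le_normalizer (d2.le.trans h4) (zpowers_le.2 (h4 hx))
      (le_commLe_iff.1 inf_le_left).2 (le_commLe_iff.1 inf_le_right).2
  · have h6 := V.mul_mem (V.inv_mem u.2) v.2
    refine le_commLe_iff.2 ⟨zpowers_le.2 (n h6), commutator_zpowers_zpowers_le (n h6) (h4 hx)
      (comm_mem_swap ?_)⟩ (mem_zpowers _)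
    have e1 := h2 (h1 (comm_mem_comm hx u.2)) _ u.2
    have e2 := h2 (h1 (comm_mem_comm hx v.2)) _ u.2
    convert c using 1
    calc _ = (u : G)⁻¹ * ⁅x, (u : G)⁆⁻¹ * (⁅x, (v : G)⁆ * u) := by
          simp only [commutatorElement_def]; group
      _ = _ := by rw [← e2, ← mul_inv_rev, ← e1]; group

omit hp in
theorem kp_chain {Q B : Subgroup G} (hV : IsElementaryAbelian 2 V) [Q.Normal] (hQ : IsPGroup 2 Q)
    (h1 : Q ≤ 𝐍 V) (hq : ¬ KP True V Q) (hU : ncl V ⊤ ≤ 𝐂 (ncl V ⊤)) (hB : B ≤ Q)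
    (h2 : ⁅ncl V ⊤, B⁆ ≤ 𝐂 B) : (𝐂 (ncl V ⊤)).relIndex B ^ 2 ≤ (𝐂 B).relIndex (ncl V ⊤) ∧
      (¬ B ≤ 𝐂 (ncl V ⊤) → (𝐂 (ncl V ⊤)).relIndex B ^ 2 < (𝐂 B).relIndex (ncl V ⊤)) := by
  induction B using WellFoundedLT.induction with | ind B ih =>
  by_cases e : B ≤ 𝐂 (ncl V ⊤)
  · rw [relIndex_eq_one.2 e]
    exact ⟨Nat.pos_of_ne_zero index_ne_zero_of_finite, fun c => (c e).elim⟩
  refine (fun c => ⟨c.le, fun _ => c⟩) ?_
  obtain ⟨g, hg⟩ : ∃ g, ¬ B ≤ 𝐂 (cj g V) := by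
    by_contra! c
    exact e (cent_symm (iSup_le fun g => cent_symm (c g)))
  have a1 := cj_le_ncl V (mem_top g)
  have a2 : (𝐂 (cj g V)).relIndex B ^ 2 < (𝐂 B).relIndex (cj g V) := by
    by_contra! c
    have n : Q ≤ 𝐍 (cj g V) := by rw [← cj_normalizer, ← cj_eq_of_normal g Q]; exact cj_mono g h1
    have : KP True (cj g⁻¹ (cj g V)) (cj g⁻¹ Q) := (kp_of_quad (ea_map hV _) hB (hQ.to_le hB) hg
      (hB.trans n) ((commutator_mono a1 le_rfl).trans h2) c).map (MulAut.conj g⁻¹).injective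
    exact hq (by rwa [cj_inv_cj, cj_eq_of_normal] at this)
  have a3 := (ih (B ⊓ 𝐂 (cj g V)) (lt_of_le_of_ne inf_le_left fun c => hg (c.ge.trans inf_le_right))
    (inf_le_left.trans hB) (((commutator_mono le_rfl inf_le_left).trans h2).trans
      (TJ.centralizer_anti inf_le_left))).1
  have a4 := relIndex_inf_mul_relIndex (𝐂 (ncl V ⊤)) (𝐂 (cj g V)) B
  have a5 := relIndex_inf_mul_relIndex (𝐂 B) (𝐂 (B ⊓ 𝐂 (cj g V) : Subgroup G)) (ncl V ⊤)
  rw [inf_eq_left.2 (TJ.centralizer_anti a1), inf_comm] at a4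
  rw [inf_eq_left.2 (TJ.centralizer_anti inf_le_left)] at a5
  rw [← a4, ← a5, mul_pow, mul_comm]
  exact Nat.mul_lt_mul_of_lt_of_le (a2.trans_le (relIndex_le_of_le_right
    (le_inf (cent_symm inf_le_right) a1) index_ne_zero_of_finite)) a3
    (Nat.pos_of_ne_zero index_ne_zero_of_finite)

omit hp in
theorem kp_short (hT : IsSylowIn 2 T ⊤) (hU : UniqMax T M ⊤) (hV : IsElementaryAbelian 2 V)
    (h1 : V ≤ pCoreOf 2 ⊤) (h2 : T ≤ 𝐍 V) (h3 : ¬ ⊤ ≤ 𝐍 V) (h4 : thompsonSubgroupOf 2 T ≤ 𝐂 V)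
    (h5 : ¬ thompsonSubgroupOf 2 T ≤ pCoreOf 2 ⊤) (h6 : ⊤ ≤ 𝐂 (omZ 2 T)) : KP True V T := by
  by_contra hq
  have hn := hU.le_ncl_of_not_le_normalizer hT fun e =>
    h5 ((J_le T).trans (Local.le_pCoreOf le_top e hT.isPGroup))
  have qT := Local.pCoreOf_le_sylowIn hT
  have hQ := isPGroup_pCoreOf (p := 2) (⊤ : Subgroup G)
  have eK := Local.resOf_sup_sylowIn hT
  set Q := pCoreOf 2 (⊤ : Subgroup G)
  set K := Local.resOf 2 (⊤ : Subgroup G) with hK
  have nn {D : Subgroup G} (a : K ≤ 𝐍 D) (b : T ≤ 𝐍 D) : ⊤ ≤ 𝐍 D := eK.ge.trans (sup_le a b)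
  have vQ (g : G) : cj g V ≤ Q := (cj_mono g h1).trans (cj_eq_of_normal g Q).le
  set U := ncl V ⊤
  have : U.Normal := normal_of_top_le (le_normalizer_ncl _ _)
  have nU := top_le_normalizer U
  have eU : IsElementaryAbelian 2 U := ea_iSup (fun _ => ea_map hV _) fun i j => by
    rw [← cj_centralizer, ← cj_inv_le_iff_le_cj, cj_cj]
    by_contra e
    exact hq (kp_sym hV h2 ((vQ _).trans qT) ((vQ _).trans qT) e)
  have uQ : U ≤ Q := iSup_le fun g => vQ g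
  have vU := le_ncl V ⊤
  have nK : ¬ K ≤ 𝐂 U := fun e => h3 (nn ((e.trans (TJ.centralizer_anti vU)).trans (cent_le_norm _)) h2)
  have cU : T ⊓ 𝐂 U ≤ Q := Local.le_pCoreOf le_top ((hU.resOf_le_or hT le_top
    (norm_cent (nU _))).resolve_left nK).2 (hT.isPGroup.to_le inf_le_left)
  obtain ⟨A₀, hA₀, a0⟩ : ∃ A, MaxEA 2 T A ∧ ¬ A ≤ Q := by
    by_contra! c
    exact h5 (J_le_iff.2 c)
  obtain ⟨hA, a1, a2⟩ := hA₀.replacement eU (uQ.trans qT) (nU _)
  replace a2 := a2 fun e => a0 ((le_inf hA₀.le (cent_symm (cent_iff.2 e))).trans cU)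
  generalize ⁅U, A₀⁆ ⊔ A₀ ⊓ 𝐂 (⁅U, A₀⁆ : Subgroup G) = A at hA a1 a2
  have a3 : ¬ A ≤ Q := fun e => a2 (cent_iff.1 (iSup_le fun g => cent_symm (by
    rw [← cj_centralizer, ← cj_inv_le_iff_le_cj]
    exact (hA.of_card_le (((cj_mono _ e).trans (cj_eq_of_normal _ Q).le).trans qT) (ea_map hA.ea _)
      (card_cj _ _).ge).le_J.trans h4)))
  have two {N : Subgroup G} [N.Normal] (b1 : N ≤ U) (b2 : ¬ ⁅U, K⁆ ≤ N) : N ≤ 𝐂 K := by
    by_contra b3
    have c1 := two_sec hT hU hn b1 eU b2 b3 hA.le hA.ea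
    have c2 := relIndex_le_of_best (hA.bestOffender eU (uQ.trans qT))
    obtain ⟨-, c3⟩ := kp_chain hV hQ (qT.trans h2) (fun ⟨B, b, e⟩ => hq ⟨B, b.trans qT, e⟩)
      (ea_le_centralizer eU) (inf_le_left : Q ⊓ A ≤ Q) (((commutator_mono le_rfl inf_le_right).trans
        (cent_iff.2 a1)).trans (TJ.centralizer_anti inf_le_right))
    have c4 := relIndex_inf_mul_relIndex (𝐂 U) Q A
    have c5 : (𝐂 U).relIndex A ≤ (𝐂 U ⊓ Q).relIndex A := relIndex_le_of_le_left inf_le_left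
      index_ne_zero_of_finite
    have c6 : (𝐂 (Q ⊓ A : Subgroup G)).relIndex U ≤ (𝐂 A).relIndex U := relIndex_le_of_le_left
      (TJ.centralizer_anti inf_le_right) index_ne_zero_of_finite
    have c7 : 1 < Q.relIndex A := lt_of_le_of_ne (Nat.pos_of_ne_zero index_ne_zero_of_finite)
      fun e => a3 (relIndex_eq_one.1 e.symm)
    have c8 : Q.relIndex A ≤ (𝐂 U).relIndex (Q ⊓ A) := by nlinarith
    have := c3 fun e => by rw [relIndex_eq_one.2 e] at c8; omega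
    nlinarith
  have zQ : K ≤ 𝐂 (U ⊓ 𝐂 Q : Subgroup G) := by
    by_contra e
    have hm : PM 2 (U ⊓ 𝐂 Q) ⊤ T M := ⟨ea_mono eU inf_le_left, norm_inf (nU _)
      (norm_cent (top_le_normalizer Q _)), hT, hU, hn, cent_symm inf_le_right, e⟩
    refine hm.pMin.uniq.not_le (le_trans (le_inf le_rfl (cent_symm ?_)) (hm.hCT le_top
      (hA.bestOffender hm.ea ((inf_le_left.trans uQ).trans qT))
      fun c => a3 ((le_inf hA.le c).trans hm.cent_le.2.le)).1)
    rw [emb_inf_centralizer (le_top.trans hm.norm)]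
    intro x hx
    obtain ⟨v, hv, hv', rfl⟩ := exists_em hx
    exact (em_mem_cent hm.norm hv').2 (cent_symm h6 (le_omZ (ea_mono hm.ea inf_le_left)
      (((inf_le_left.trans inf_le_left).trans uQ).trans qT) inf_le_right hv))
  have : K.Normal := normal_of_top_le (Local.le_normalizer_resOf ⊤)
  set X := ⁅Q, K⁆
  have xQ : X ≤ Q := commutator_le_left _ _
  have xU : ¬ X ≤ 𝐂 U := fun e => nK (p_times_q (ea_isPGroup eU) (nU _) (nU _)
    (by rw [resOf_eq_bot_of_isPGroup hQ]; exact bot_le) e zQ)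
  have u1 : ⁅U, X⁆ ≤ 𝐂 K := (commutator_mono le_rfl xQ).trans (two (commutator_le_left _ _) fun e => by
    have b1 : U ≤ V ⊔ ⁅U, Q⁆ := ncl_le le_sup_left (nn (Local.le_normalizer_of_commutator_le_of_le
      (e.trans le_sup_right) (sup_le vU (commutator_le_left _ _))) (norm_sup h2 (top_le_normalizer _ _)))
    obtain ⟨D, d1, d2, d3, -, d4⟩ := PG.exists_invariant_step_down hQ (ea_isPGroup eU) (qT.trans h2)
      (nU _) (lt_of_le_of_ne vU fun c => h3 (c ▸ nU _))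
    exact d2.not_ge (b1.trans (sup_le d1 (PG.commutator_le_of_card_eq_prime_mul hQ (ea_isPGroup eU)
      d3 (nU _) d2.le d4).1)))
  have u2 : ⁅U, X⁆ ≤ U := commutator_le_left _ _
  obtain ⟨U₀, -, d2, d3, -, d4⟩ := PG.exists_invariant_step_down hT.isPGroup
    ((ea_isPGroup eU).to_le u2) (top_le_normalizer ⊥ _) (top_le_normalizer _ _)
    (bot_lt_iff_ne_bot.2 fun e => xU (cent_symm (cent_iff.2 e)))
  have : U₀.Normal := normal_of_top_le (nn ((cent_symm (d2.le.trans u1)).trans (cent_le_norm _)) d3)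
  have : (commLe X U₀).Normal := normal_of_top_le
    (FrakM.le_normalizer_commLe (top_le_normalizer _ _) (top_le_normalizer _ _))
  have xK : 𝐂 K ≤ 𝐂 X := TJ.centralizer_anti (commutator_le_right _ _)
  have u3 := two (inf_le_left : U ⊓ commLe X U₀ ≤ U) fun e => d2.not_ge (by
    rw [commutator_comm, show X = ⁅X, K⁆ from
      (Local.commutator_resOf_resOf hQ (top_le_normalizer _ _)).symm]
    refine three_subgroups_le ?_ ?_
    · rw [commutator_comm K]; exact (le_commLe_iff.1 (e.trans inf_le_right)).2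
    · exact (cent_iff.1 u1).le.trans bot_le)
  refine hq (kp_of_quad hV (xQ.trans qT) (hQ.to_le xQ)
    (fun e => xU (le_centralizer_ncl (top_le_normalizer _ _) e)) ((xQ.trans qT).trans h2)
    ((commutator_mono vU le_rfl).trans (u1.trans xK)) (le_trans ?_ ((dual_le (hQ.to_le xQ)
      (commutator_mono vU le_rfl) (ea_le_centralizer_of_le eU u2 vU) d2.le (top_le_normalizer _ _)
      (PG.relIndex_eq_of_card_eq_mul d2.le d4).le).trans (Nat.le_self_pow two_ne_zero _))))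
  rw [← inf_relIndex_left V (commLe X U₀)]
  exact relIndex_le_of_le_left (((inf_le_inf_right _ vU).trans u3).trans xK) index_ne_zero_of_finite

end Cfsg.Lib.Trans.BB
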